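/-
Decompositions into hyperbolic planes: hyperbolic pairs, the rotations, the Siegel maps as maps on a set of vectors.
-/
import Mathlib
import Cfsg.Agent.Lib.Classical.Decomp.Ev.Main

set_option autoImplicit false
set_option linter.unusedSectionVars false
set_option linter.unusedSimpArgs false
set_option linter.unusedVariables false

namespace Cfsg.Agent.Lib.Classical.Decomp.Hyp

open Matrix QuadraticMap Module Cfsg.Geo
open Cfsg.Agent.Lib.Classical.Decomp
open Cfsg.Agent.Lib.Classical.Decomp.Ev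
open Cfsg.Agent.Lib.Classical.Orth.Basic
open Cfsg.Agent.Lib.Classical.Orth.Spinor

variable {ι : Type} [Fintype ι] [DecidableEq ι] {F : Type*} [Field F] [Fintype F]
variable {Q : QuadraticForm F (ι → F)}

set_option quotPrecheck false in
local notation "𝔣" => polar (⇑Q)
set_option quotPrecheck false in
local notation "𝕀" => ↥(Cfsg.isometryGroup F (⇑Q))

variable {t : ℕ} {D : Fin t → Submodule F (ι → F)} {π : Fin t → (ι → F) →ₗ[F] (ι → F)}
variable {R : Set (ι → F)} {c : F}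

/-- A hyperbolic pair. -/
structure HB (Q : QuadraticForm F (ι → F)) (u v : ι → F) : Prop where
  Qu : Q u = 0
  Qv : Q v = 0
  f : polar (⇑Q) u v = 1

section HBasic

variable {u v : ι → F}

theorem HB.symm (h : HB Q u v) : HB Q v u := ⟨h.Qv, h.Qu, by rw [polar_comm]; exact h.f⟩

theorem HB.fuu (h : HB Q u v) : 𝔣 u u = 0 := by rw [polar_self_eq, h.Qu, mul_zero]

theorem HB.fvv (h : HB Q u v) : 𝔣 v v = 0 := by rw [polar_self_eq, h.Qv, mul_zero]

theorem HB.fvu (h : HB Q u v) : 𝔣 v u = 1 := h.symm.f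

theorem HB.Q_comb (h : HB Q u v) (s r : F) : Q (s • u + r • v) = s * r := by
  rw [Q_add, Q_smul, Q_smul, h.Qu, h.Qv, polar_smul_left', polar_smul_right', h.f]
  ring

theorem HB.u_ne (h : HB Q u v) : u ≠ 0 := by
  rintro rfl
  have := h.f
  rw [polar_zero_left] at this
  exact zero_ne_one this

theorem HB.v_ne (h : HB Q u v) : v ≠ 0 := h.symm.u_ne

theorem HB.indep (h : HB Q u v) (l : F) : v ≠ l • u := by
  intro hl
  have h1 := h.f
  rw [hl, polar_smul_right', h.fuu, mul_zero] at h1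
  exact zero_ne_one h1

theorem HB.f_comb_right (h : HB Q u v) (s r : F) : 𝔣 u (s • u + r • v) = r := by
  rw [polar_add_right, polar_smul_right', polar_smul_right', h.fuu, h.f]
  ring

theorem HB.f_comb_right' (h : HB Q u v) (s r : F) : 𝔣 v (s • u + r • v) = s := by
  rw [polar_add_right, polar_smul_right', polar_smul_right', h.fvv, h.fvu]
  ring

end HBasic

section Plane

variable (dec : Dec Q 2 D π)
include dec

/-- Coordinates in a member with respect to a hyperbolic pair. -/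
theorem coord_hb {i : Fin t} {u v x : ι → F} (h : HB Q u v) (hu : u ∈ D i) (hv : v ∈ D i) (hx : x ∈ D i) :
    x = (𝔣 v x) • u + (𝔣 u x) • v := by
  obtain ⟨p, r, rfl⟩ := coord (dec.dim i) hu hv h.u_ne h.indep x hx
  rw [h.f_comb_right, h.f_comb_right']

/-- A vector of a member is zero if it is orthogonal to a hyperbolic pair. -/
theorem eq_zero_of_perp {i : Fin t} {u v x : ι → F} (h : HB Q u v) (hu : u ∈ D i) (hv : v ∈ D i) (hx : x ∈ D i)
    (h1 : 𝔣 u x = 0) (h3 : 𝔣 v x = 0) : x = 0 := by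
  rw [coord_hb dec h hu hv hx, h1, h3, zero_smul, zero_smul, add_zero]

/-- A singular vector of a member is a multiple of one of the vectors of a hyperbolic pair. -/
theorem sing_cases {i : Fin t} {u v x : ι → F} (h : HB Q u v) (hu : u ∈ D i) (hv : v ∈ D i) (hx : x ∈ D i) (hQ0 : Q x = 0) :
    𝔣 v x = 0 ∨ 𝔣 u x = 0 := by
  have h1 := coord_hb dec h hu hv hx
  have h3 : Q x = 𝔣 v x * 𝔣 u x := by
    conv_lhs => rw [h1]
    exact h.Q_comb _ _
  rw [hQ0] at h3
  exact mul_eq_zero.1 h3.symm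

/-- A partner. -/
theorem exists_partner {i : Fin t} {e : ι → F} (he : e ∈ D i) (he0 : e ≠ 0) (hQe : Q e = 0) : ∃ f ∈ D i, HB Q e f := by
  obtain ⟨-, y, hy, hey⟩ := dec.nd i e he he0
  set y' := (𝔣 e y)⁻¹ • y with hy'
  have hy'E : y' ∈ D i := (D i).smul_mem _ hy
  have h1 : 𝔣 e y' = 1 := by
    rw [hy', polar_smul_right', inv_mul_cancel₀ hey]
  have hee : 𝔣 e e = 0 := by rw [polar_self_eq, hQe, mul_zero]
  clear_value y'
  generalize hs : Q y' = s
  refine ⟨y' - s • e, (D i).sub_mem hy'E ((D i).smul_mem _ he), hQe, ?_, ?_⟩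
  · rw [Q_sub, Q_smul, hQe, polar_smul_right', polar_comm (⇑Q) y' e, h1, hs]
    ring
  · rw [polar_sub_right, polar_smul_right', hee, h1]
    ring

end Plane

section Rot

variable {u v : ι → F}

theorem HB.ne1 (h : HB Q u v) : Q (u + v) ≠ 0 := by
  have := h.Q_comb 1 1
  rw [one_smul, one_smul, one_mul] at this
  rw [this]
  exact one_ne_zero

theorem HB.nes (h : HB Q u v) {s : F} (hs : s ≠ 0) : Q (u + s • v) ≠ 0 := by
  have := h.Q_comb 1 s
  rw [one_smul, one_mul] at this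
  rw [this]
  exact hs

/-- The rotation of a hyperbolic plane. -/
noncomputable def tr (h : HB Q u v) (s : F) (hs : s ≠ 0) : 𝕀 :=
  reflectionIso Q (u + v) h.ne1 * reflectionIso Q (u + s • v) (h.nes hs)

theorem tr_act (h : HB Q u v) (s : F) (hs : s ≠ 0) (x : ι → F) :
    act (tr h s hs) x = x + ((s - 1) * 𝔣 v x) • u + ((s⁻¹ - 1) * 𝔣 u x) • v := by
  have hQ1 : Q (u + v) = 1 := by
    have := h.Q_comb 1 1
    rwa [one_smul, one_smul, one_mul] at this
  have hQs : Q (u + s • v) = s := by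
    have := h.Q_comb 1 s
    rwa [one_smul, one_mul] at this
  unfold tr
  rw [act_mul, reflectionIso_act, reflectionIso_act, hQ1, hQs]
  have e1 : 𝔣 (u + s • v) x = 𝔣 u x + s * 𝔣 v x := by
    rw [polar_add_left, polar_smul_left']
  have e2 : 𝔣 (u + v) (x - (s⁻¹ * 𝔣 (u + s • v) x) • (u + s • v)) =
      𝔣 u x + 𝔣 v x - (s⁻¹ * (𝔣 u x + s * 𝔣 v x)) * (s + 1) := by
    rw [polar_sub_right, polar_smul_right', e1, polar_add_left, polar_add_left, polar_add_right, polar_add_right,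
      polar_smul_right', polar_smul_right', h.fuu, h.fvv, h.f, h.fvu]
    ring
  rw [e1] at *
  rw [e2]
  have e3 : (1 : F)⁻¹ = 1 := inv_one
  rw [e3, one_mul]
  set X := 𝔣 v x
  set Y := 𝔣 u x
  have e4 : s⁻¹ * (Y + s * X) = s⁻¹ * Y + X := by
    field_simp
  rw [e4]
  have e5 : Y + X - (s⁻¹ * Y + X) * (s + 1) = -(s * X + s⁻¹ * Y) := by
    field_simp
    ring
  rw [e5]
  have e6 : s • v = s • v := rfl
  ext j
  simp only [Pi.add_apply, Pi.sub_apply, Pi.smul_apply, smul_eq_mul]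
  field_simp
  ring

theorem tr_fix (h : HB Q u v) (s : F) (hs : s ≠ 0) {x : ι → F} (h1 : 𝔣 u x = 0) (h3 : 𝔣 v x = 0) :
    act (tr h s hs) x = x := by
  rw [tr_act, h1, h3]
  simp

theorem tr_u (h : HB Q u v) (s : F) (hs : s ≠ 0) : act (tr h s hs) u = s • u := by
  rw [tr_act, h.fuu, h.fvu]
  ext j
  simp only [Pi.add_apply, Pi.smul_apply, smul_eq_mul]
  ring

theorem tr_stab {i : Fin t} {k : ℕ} (dec : Dec Q k D π) (h : HB Q u v) (hu : u ∈ D i) (hv : v ∈ D i) (s : F) (hs : s ≠ 0) :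
    ((tr h s hs : 𝕀) : GL ι F) ∈ decompositionStabilizer D :=
  (decompositionStabilizer D).mul_mem (refl_stab dec ((D i).add_mem hu hv) h.ne1)
    (refl_stab dec ((D i).add_mem hu ((D i).smul_mem _ hv)) (h.nes hs))

/-- Rotations by squares lie in `Ω`. -/
theorem tr_omega_sq (hQ : (polarBilin Q).Nondegenerate) (hn : Fintype.card ι ≠ 4) (h : HB Q u v) {ν : F} (hν : ν ≠ 0)
    (hs : ν * ν ≠ 0) : tr h (ν * ν) hs ∈ Cfsg.Omega F (⇑Q) := by
  refine pair_omega_sq hQ hn _ _ ?_
  have hQ1 : Q (u + v) = 1 := by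
    have := h.Q_comb 1 1
    rwa [one_smul, one_smul, one_mul] at this
  have hQs : Q (u + (ν * ν) • v) = ν * ν := by
    have := h.Q_comb 1 (ν * ν)
    rwa [one_smul, one_mul] at this
  rw [hQ1, hQs]
  exact ⟨ν⁻¹, by field_simp⟩

/-- Products of two rotations by the same element lie in `Ω`. -/
theorem tr_omega_two (hQ : (polarBilin Q).Nondegenerate) (hn : Fintype.card ι ≠ 4) {u' v' : ι → F} (h : HB Q u v)
    (h' : HB Q u' v') {s : F} (hs : s ≠ 0) : tr h s hs * tr h' s hs ∈ Cfsg.Omega F (⇑Q) := by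
  unfold tr
  set r₁ := reflectionIso Q (u + v) h.ne1
  set r₂ := reflectionIso Q (u + s • v) (h.nes hs)
  set r₃ := reflectionIso Q (u' + v') h'.ne1 with hr₃
  set r₄ := reflectionIso Q (u' + s • v') (h'.nes hs)
  have hQ1 : Q (u + v) = Q (u' + v') := by
    have a1 := h.Q_comb 1 1
    have a2 := h'.Q_comb 1 1
    rw [one_smul, one_smul] at a1 a2
    rw [a1, a2]
  have hQs : Q (u + s • v) = Q (u' + s • v') := by
    have a1 := h.Q_comb 1 s
    have a2 := h'.Q_comb 1 s
    rw [one_smul] at a1 a2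
    rw [a1, a2]
  have h1 : r₁ * r₃ ∈ Cfsg.Omega F (⇑Q) := pair_omega hQ hn _ _ hQ1
  have hinv : r₃⁻¹ = r₃ := reflectionIso_inv Q _ _
  have hconj := conj_reflectionIso r₃ (u + s • v) (h.nes hs)
  rw [hinv] at hconj
  have h3 : r₃ * r₂ * r₃ * r₄ ∈ Cfsg.Omega F (⇑Q) := by
    change r₃ * reflectionIso Q (u + s • v) (h.nes hs) * r₃ * r₄ ∈ _
    rw [hconj]
    exact pair_omega hQ hn _ _ (by rw [Q_act]; exact hQs)
  have e : r₁ * r₂ * (r₃ * r₄) = r₁ * r₃ * (r₃ * r₂ * r₃ * r₄) := by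
    have h33 : r₃ * r₃ = 1 := reflectionIso_mul_self Q _ _
    calc r₁ * r₂ * (r₃ * r₄) = r₁ * (r₃ * r₃) * r₂ * r₃ * r₄ := by rw [h33, mul_one]; simp only [mul_assoc]
      _ = _ := by simp only [mul_assoc]
  rw [e]
  exact (Cfsg.Omega F (⇑Q)).mul_mem h1 h3

end Rot

/-- The Siegel map. -/
noncomputable def EE (Q : QuadraticForm F (ι → F)) (u w x : ι → F) : ι → F :=
  x + (polar (⇑Q) u x) • w - (polar (⇑Q) w x) • u - (Q w * polar (⇑Q) u x) • u

/-- The Siegel map preserves the set `R`. -/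
def Rt (Q : QuadraticForm F (ι → F)) (R : Set (ι → F)) (u w : ι → F) : Prop := ∀ x ∈ R, EE Q u w x ∈ R

section EEcalc

variable {u w w' : ι → F}

theorem EE_zero (x : ι → F) : EE Q u 0 x = x := by
  simp [EE]

theorem EE_smul_left (s : F) (x : ι → F) : EE Q (s • u) w x = EE Q u (s • w) x := by
  unfold EE
  rw [polar_smul_left' Q s u x, polar_smul_left' Q s w x, Q_smul]
  ext j
  simp only [Pi.add_apply, Pi.sub_apply, Pi.smul_apply, smul_eq_mul]
  by_cases hs : s = 0
  · subst hs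
    ring
  · ring

theorem EE_add (hu : Q u = 0) (h1 : 𝔣 u w = 0) (h3 : 𝔣 u w' = 0) (x : ι → F) :
    EE Q u w (EE Q u w' x) = EE Q u (w + w') x := by
  have huu : 𝔣 u u = 0 := by rw [polar_self_eq, hu, mul_zero]
  have e1 : 𝔣 u (EE Q u w' x) = 𝔣 u x := by
    unfold EE
    rw [polar_sub_right, polar_sub_right, polar_add_right, polar_smul_right', polar_smul_right', polar_smul_right', h3, huu]
    ring
  have e2 : 𝔣 w (EE Q u w' x) = 𝔣 w x + 𝔣 u x * 𝔣 w w' := by
    have hwu : 𝔣 w u = 0 := by rw [polar_comm]; exact h1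
    unfold EE
    rw [polar_sub_right, polar_sub_right, polar_add_right, polar_smul_right', polar_smul_right', polar_smul_right', hwu]
    ring
  unfold EE at e1 e2 ⊢
  rw [e1, e2, polar_add_left, Q_add]
  ext j
  simp only [Pi.add_apply, Pi.sub_apply, Pi.smul_apply, smul_eq_mul]
  ring

theorem EE_shift (hu : Q u = 0) (h1 : 𝔣 u w = 0) (s : F) (x : ι → F) : EE Q u (w + s • u) x = EE Q u w x := by
  unfold EE
  rw [Q_add, Q_smul, hu, polar_add_left, polar_smul_left', polar_smul_right', polar_comm (⇑Q) w u, h1]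
  ext j
  simp only [Pi.add_apply, Pi.sub_apply, Pi.smul_apply, smul_eq_mul]
  ring

theorem Q_EE (hu : Q u = 0) (h1 : 𝔣 u w = 0) (x : ι → F) : Q (EE Q u w x) = Q x := by
  have hwu : 𝔣 w u = 0 := by rw [polar_comm]; exact h1
  have huu : 𝔣 u u = 0 := by rw [polar_self_eq, hu, mul_zero]
  have e : EE Q u w x = x + ((𝔣 u x) • w + (-(𝔣 w x + Q w * 𝔣 u x)) • u) := by
    unfold EE
    ext j
    simp only [Pi.add_apply, Pi.sub_apply, Pi.smul_apply, smul_eq_mul]
    ring
  rw [e, Q_add, Q_add, Q_smul, Q_smul, hu, polar_add_right, polar_smul_right', polar_smul_right', polar_smul_left',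
    polar_smul_right', hwu, polar_comm (⇑Q) x w, polar_comm (⇑Q) x u]
  ring

/-- The product of the reflections in `a` and `a + u`. -/
theorem refl_refl (hu : Q u = 0) {a : ι → F} (hau : 𝔣 a u = 0) (ha : Q a ≠ 0) (hb : Q (a + u) ≠ 0) (x : ι → F) :
    act (reflectionIso Q a ha) (act (reflectionIso Q (a + u) hb) x) = EE Q u ((Q a)⁻¹ • a) x := by
  have hQb : Q (a + u) = Q a := by
    rw [Q_add, hu, hau]
    ring
  have hua : 𝔣 u a = 0 := by rw [polar_comm]; exact hau
  rw [reflectionIso_act, reflectionIso_act, hQb]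
  unfold EE
  rw [Q_smul, polar_smul_left', polar_add_left]
  have e2 : 𝔣 a (x - ((Q a)⁻¹ * (𝔣 a x + 𝔣 u x)) • (a + u)) = - 𝔣 a x - 2 * 𝔣 u x := by
    rw [polar_sub_right, polar_smul_right', polar_add_right, polar_self_eq, hau]
    field_simp
    ring
  rw [e2]
  ext j
  simp only [Pi.add_apply, Pi.sub_apply, Pi.smul_apply, smul_eq_mul]
  field_simp
  ring

theorem EE_act (g : 𝕀) (x : ι → F) : act g (EE Q u w (act g⁻¹ x)) = EE Q (act g u) (act g w) x := by
  unfold EE
  rw [act_sub, act_sub, act_add, act_smul, act_smul, act_smul, act_act_inv, Q_act]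
  have h1 : ∀ z, 𝔣 z (act g⁻¹ x) = 𝔣 (act g z) x := by
    intro z
    rw [← polar_act g z (act g⁻¹ x), act_act_inv]
  rw [h1, h1]

end EEcalc

section RtCalc

variable {u w w' : ι → F}

theorem Rt.add (hu : Q u = 0) (h1 : 𝔣 u w = 0) (h3 : 𝔣 u w' = 0) (H : Rt Q R u w) (H' : Rt Q R u w') : Rt Q R u (w + w') := by
  intro x hx
  rw [← EE_add hu h1 h3]
  exact H _ (H' _ hx)

theorem Rt.neg (hu : Q u = 0) (h1 : 𝔣 u w = 0) (H : Rt Q R u w) : Rt Q R u (-w) := by
  classical
  intro x hx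
  have hcan : ∀ y, EE Q u (-w) (EE Q u w y) = y := by
    intro y
    rw [EE_add hu (by rw [polar_neg_right, h1, neg_zero]) h1, neg_add_cancel, EE_zero]
  let φ : ↥R → ↥R := fun y => ⟨EE Q u w y, H y y.2⟩
  have hinj : Function.Injective φ := by
    intro y y' h
    have h5 : EE Q u w y = EE Q u w y' := congrArg Subtype.val h
    apply Subtype.ext
    rw [← hcan y, ← hcan y', h5]
  haveI : Finite ↥R := Set.toFinite R
  obtain ⟨y, hy⟩ := Finite.injective_iff_surjective.1 hinj ⟨x, hx⟩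
  have h5 : EE Q u w y = x := congrArg Subtype.val hy
  rw [← h5, hcan]
  exact y.2

theorem Rt.smul_left {s : F} (H : Rt Q R (s • u) w) : Rt Q R u (s • w) := by
  intro x hx
  rw [← EE_smul_left]
  exact H x hx

theorem Rt.conj (S : Sys Q 2 D π R c) (g : 𝕀) (hg : g ∈ Cfsg.Omega F (⇑Q)) (hgS : (g : GL ι F) ∈ decompositionStabilizer D)
    (H : Rt Q R u w) : Rt Q R (act g u) (act g w) := by
  intro x hx
  rw [← EE_act]
  refine S.hinv g hg hgS _ (H _ (S.hinv g⁻¹ ((Cfsg.Omega F (⇑Q)).inv_mem hg) ?_ _ hx))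
  exact (decompositionStabilizer D).inv_mem hgS

end RtCalc

end Cfsg.Agent.Lib.Classical.Decomp.Hyp
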