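/-
Decompositions into hyperbolic planes: a vector of the class with a singular nonzero component gives all vectors of the norm.
-/
import Mathlib
import Cfsg.Agent.Lib.Classical.Decomp.Hyp.Base

set_option autoImplicit false
set_option linter.unusedSectionVars false
set_option linter.unusedSimpArgs false
set_option linter.unusedVariables false

namespace Cfsg.Agent.Lib.Classical.Decomp.Hyp

open Matrix QuadraticMap Module Cfsg.Geo
open Cfsg.Agent.Lib.Classical.Decomp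
open Cfsg.Agent.Lib.Classical.Decomp.Ev
open Cfsg.Agent.Lib.Classical.Orth.Basic
open Cfsg.Agent.Lib.Classical.Orth.Spinor
open Cfsg.Agent.Lib.Classical.Orth.Dickson

variable {ι : Type} [Fintype ι] [DecidableEq ι] {F : Type*} [Field F] [Fintype F]
variable {Q : QuadraticForm F (ι → F)}

set_option quotPrecheck false in
local notation "𝔣" => polar (⇑Q)
set_option quotPrecheck false in
local notation "𝕀" => ↥(Cfsg.isometryGroup F (⇑Q))

variable {t : ℕ} {D : Fin t → Submodule F (ι → F)} {π : Fin t → (ι → F) →ₗ[F] (ι → F)}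
variable {R : Set (ι → F)} {c : F}

/-- The data for the closure argument with hyperbolic planes. -/
structure HS (Q : QuadraticForm F (ι → F)) {t : ℕ} (D : Fin t → Submodule F (ι → F))
    (π : Fin t → (ι → F) →ₗ[F] (ι → F)) (R : Set (ι → F)) (c : F) : Prop extends Sys Q 2 D π R c where
  ht : 7 ≤ t
  hq : 7 ≤ Fintype.card F
  iso : ∀ i j, AreIsometricFor (⇑Q) (D i) (D j)
  hn : Fintype.card ι ≠ 4
  hyp : ∀ i, ∃ e f, e ∈ D i ∧ f ∈ D i ∧ HB Q e f

omit [Fintype ι] [DecidableEq ι] in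
/-- Two squares different from one and from each other. -/
theorem exists_sq_pair (hq : 7 ≤ Fintype.card F) :
    ∃ ν₁ ν₂ : F, ν₁ ≠ 0 ∧ ν₂ ≠ 0 ∧ ν₁ * ν₁ ≠ 1 ∧ ν₂ * ν₂ ≠ 1 ∧ ν₁ * ν₁ ≠ ν₂ * ν₂ := by
  classical
  set T := (Finset.univ : Finset F).erase 0 with hT
  have hTc : T.card + 1 = Fintype.card F := by
    rw [hT, Finset.card_erase_of_mem (Finset.mem_univ _), Finset.card_univ]
    have := Fintype.card_pos (α := F)
    omega
  set I := T.image (fun x => x * x) with hI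
  have h1 : T.card ≤ 2 * I.card := by
    refine Finset.card_le_mul_card_image T 2 (fun a ha => ?_)
    obtain ⟨y, hy, rfl⟩ := Finset.mem_image.1 ha
    have hsub : T.filter (fun x => x * x = y * y) ⊆ {y, -y} := by
      intro x hx
      have h3 := (Finset.mem_filter.1 hx).2
      have h4 : (x - y) * (x + y) = 0 := by linear_combination h3
      rcases mul_eq_zero.1 h4 with h5 | h5
      · simp [sub_eq_zero.1 h5]
      · simp [eq_neg_of_add_eq_zero_left h5]
    exact (Finset.card_le_card hsub).trans Finset.card_le_two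
  have h3 : 1 < (I.erase 1).card := by
    have := Finset.pred_card_le_card_erase (s := I) (a := (1 : F))
    omega
  obtain ⟨a, ha, b, hb, hab⟩ := Finset.one_lt_card.1 h3
  obtain ⟨ha1, ha2⟩ := Finset.mem_erase.1 ha
  obtain ⟨hb1, hb2⟩ := Finset.mem_erase.1 hb
  obtain ⟨x, hx, rfl⟩ := Finset.mem_image.1 ha2
  obtain ⟨y, hy, rfl⟩ := Finset.mem_image.1 hb2
  exact ⟨x, y, (Finset.mem_erase.1 hx).1, (Finset.mem_erase.1 hy).1, ha1, hb1, hab⟩

/-- An index outside a small set. -/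
theorem exists_notMem_fin {t : ℕ} (s : Finset (Fin t)) (h : s.card < t) : ∃ k, k ∉ s := by
  by_contra hcon
  push Not at hcon
  have h1 : (Finset.univ : Finset (Fin t)) ⊆ s := fun l _ => hcon l
  have h3 := Finset.card_le_card h1
  rw [Finset.card_univ, Fintype.card_fin] at h3
  omega

/-- A permutation with two prescribed values. -/
theorem exists_perm_two {t : ℕ} {i j i' j' : Fin t} (hij : i ≠ j) (hij' : i' ≠ j') :
    ∃ σ : Equiv.Perm (Fin t), σ i = i' ∧ σ j = j' := by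
  set σ₁ := Equiv.swap i i' with hσ₁
  have h1 : σ₁ j ≠ i' := by
    intro h
    have h3 : σ₁ j = σ₁ i := by rw [h, hσ₁, Equiv.swap_apply_left]
    exact hij (σ₁.injective h3).symm
  refine ⟨Equiv.swap (σ₁ j) j' * σ₁, ?_, ?_⟩
  · rw [Equiv.Perm.mul_apply, hσ₁, Equiv.swap_apply_left, ← hσ₁]
    exact Equiv.swap_apply_of_ne_of_ne (Ne.symm h1) hij'
  · rw [Equiv.Perm.mul_apply, Equiv.swap_apply_left]

/-- The correction inside one member. -/
theorem corr_block (dec : Dec Q 2 D π) (hQ : (polarBilin Q).Nondegenerate) (hn : Fintype.card ι ≠ 4) (k : Fin t)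
    (h : 𝕀) : ∃ r : 𝕀, (r : GL ι F) ∈ decompositionStabilizer D ∧ (∀ y, π k y = 0 → act r y = y) ∧
      r * h ∈ Cfsg.Omega F (⇑Q) := by
  classical
  have hfix : ∀ w ∈ D k, ∀ (h0 : Q w ≠ 0), ∀ y, π k y = 0 → act (reflectionIso Q w h0) y = y := by
    intro w hwE h0 y hy
    rw [reflectionIso_act, dec.polar_comp hwE, hy, polar_zero_right]
    simp
  have hd : 2 ≤ finrank F (D k) := by rw [dec.dim]
  by_cases h2 : (2 : F) = 0
  · haveI := charP_two_of h2
    obtain ⟨w, hw, hw0⟩ := exists_nonsing (dec.nd k) (by omega)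
    rcases Int.units_eq_one_or (dicksonHom hQ (Or.inr hn) h) with hd' | hd'
    · refine ⟨1, (decompositionStabilizer D).one_mem, fun y _ => act_one y, ?_⟩
      rw [one_mul]
      exact (mem_omega_iff_char_two hQ (Or.inr hn) h).2 hd'
    · refine ⟨reflectionIso Q w hw0, refl_stab dec hw hw0, hfix w hw hw0, (mem_omega_iff_char_two hQ (Or.inr hn) _).2 ?_⟩
      rw [map_mul, dicksonHom_reflection, hd']
      decide
  · obtain ⟨w₁, hw₁, hQw₁⟩ := universal h2 (dec.nd k) hd 1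
    obtain ⟨w₂, hw₂, hQw₂⟩ := universal h2 (dec.nd k) hd (nonsq h2)
    have h01 : Q w₁ ≠ 0 := by rw [hQw₁]; exact one_ne_zero
    have h02 : Q w₂ ≠ 0 := by rw [hQw₂]; exact nonsq_ne_zero h2
    have hs1 : plusSign Q (reflectionIso Q w₁ h01) = -1 ∧ spinorSign Q h2 (reflectionIso Q w₁ h01) = 1 := by
      rw [plusSign_reflection Q h2, spinorSign_reflection Q h2, hQw₁]
      simp
    have hs2 : plusSign Q (reflectionIso Q w₂ h02) = 1 ∧ spinorSign Q h2 (reflectionIso Q w₂ h02) = -1 := by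
      rw [plusSign_reflection Q h2, spinorSign_reflection Q h2, hQw₂, if_neg (nonsq_spec h2), if_neg (nonsq_spec h2)]
      simp
    have hst1 := refl_stab dec hw₁ h01
    have hst2 := refl_stab dec hw₂ h02
    rcases Int.units_eq_one_or (plusSign Q h) with hp | hp <;>
      rcases Int.units_eq_one_or (spinorSign Q h2 h) with hs | hs
    · refine ⟨1, (decompositionStabilizer D).one_mem, fun y _ => act_one y, ?_⟩
      rw [one_mul]
      exact (mem_omega_iff Q hQ h2 h).2 ⟨hp, hs⟩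
    · refine ⟨reflectionIso Q w₂ h02, hst2, hfix w₂ hw₂ h02, (mem_omega_iff Q hQ h2 _).2 ?_⟩
      rw [map_mul, map_mul, hp, hs, hs2.1, hs2.2]
      simp
    · refine ⟨reflectionIso Q w₁ h01, hst1, hfix w₁ hw₁ h01, (mem_omega_iff Q hQ h2 _).2 ?_⟩
      rw [map_mul, map_mul, hp, hs, hs1.1, hs1.2]
      simp
    · refine ⟨reflectionIso Q w₁ h01 * reflectionIso Q w₂ h02, (decompositionStabilizer D).mul_mem hst1 hst2, ?_,
        (mem_omega_iff Q hQ h2 _).2 ?_⟩
      · intro y hy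
        rw [act_mul, hfix w₂ hw₂ h02 y hy, hfix w₁ hw₁ h01 y hy]
      · rw [map_mul, map_mul, map_mul, map_mul, hp, hs, hs1.1, hs1.2, hs2.1, hs2.2]
        simp

/-- Moving singular vectors inside a member. -/
theorem move_sing (dec : Dec Q 2 D π) {l : Fin t} {u₁ u₂ : ι → F} (h₁ : u₁ ∈ D l) (h₂ : u₂ ∈ D l) (h₁0 : u₁ ≠ 0) (h₂0 : u₂ ≠ 0)
    (hQ₁ : Q u₁ = 0) (hQ₂ : Q u₂ = 0) : ∃ g : 𝕀, (g : GL ι F) ∈ decompositionStabilizer D ∧ act g u₁ = u₂ ∧
      ∀ y, π l y = 0 → act g y = y := by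
  by_cases hf : 𝔣 u₁ u₂ = 0
  · obtain ⟨f, hf', hb⟩ := exists_partner dec h₁ h₁0 hQ₁
    have hc := coord_hb dec hb h₁ hf' h₂
    rw [hf, zero_smul, add_zero] at hc
    have hs : 𝔣 f u₂ ≠ 0 := by
      intro h
      rw [h, zero_smul] at hc
      exact h₂0 hc
    refine ⟨tr hb _ hs, tr_stab dec hb h₁ hf' _ hs, ?_, fun y hy => ?_⟩
    · rw [tr_u]
      exact hc.symm
    · apply tr_fix
      · rw [dec.polar_comp h₁, hy, polar_zero_right]
      · rw [dec.polar_comp hf', hy, polar_zero_right]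
  · have hw : Q (u₁ - u₂) ≠ 0 := by
      rw [Q_sub, hQ₁, hQ₂]
      simpa using hf
    refine ⟨reflectionIso Q _ hw, refl_stab dec ((D l).sub_mem h₁ h₂) hw, refl_swap (by rw [hQ₁, hQ₂]) hw, fun y hy => ?_⟩
    rw [reflectionIso_act, dec.polar_comp ((D l).sub_mem h₁ h₂), hy, polar_zero_right]
    simp

/-- Transport of pairs of singular vectors in two different members by `Ω` and the stabiliser. -/
theorem transport (dec : Dec Q 2 D π) (hQ : (polarBilin Q).Nondegenerate) (hn : Fintype.card ι ≠ 4)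
    (iso : ∀ i j, AreIsometricFor (⇑Q) (D i) (D j)) (ht : 3 ≤ t) {i j i' j' : Fin t} (hij : i ≠ j) (hij' : i' ≠ j')
    {v v' u u' : ι → F} (hv : v ∈ D i) (hv' : v' ∈ D j) (hu : u ∈ D i') (hu' : u' ∈ D j') (hv0 : v ≠ 0) (hv'0 : v' ≠ 0)
    (hu0 : u ≠ 0) (hu'0 : u' ≠ 0) (hQv : Q v = 0) (hQv' : Q v' = 0) (hQu : Q u = 0) (hQu' : Q u' = 0) :
    ∃ G : 𝕀, G ∈ Cfsg.Omega F (⇑Q) ∧ (G : GL ι F) ∈ decompositionStabilizer D ∧ act G v = u ∧ act G v' = u' := by
  classical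
  obtain ⟨σ, hσ₁, hσ₂⟩ := exists_perm_two hij hij'
  obtain ⟨h, hh, -⟩ := exists_perm_iso dec hQ iso σ
  have hst : ((h : 𝕀) : GL ι F) ∈ decompositionStabilizer D := mem_stab_of_perm dec _ σ hh
  have hv₁ : act h v ∈ D i' := by
    have := hh i v hv
    rwa [hσ₁] at this
  have hv₂ : act h v' ∈ D j' := by
    have := hh j v' hv'
    rwa [hσ₂] at this
  have hne : ∀ {x : ι → F}, x ≠ 0 → act h x ≠ 0 := by
    intro x hx h0
    apply hx
    have := congrArg (act h⁻¹) h0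
    rwa [act_inv_act, act_zero] at this
  obtain ⟨t₁, ht₁, h₁a, h₁b⟩ := move_sing dec hv₁ hu (hne hv0) hu0 (by rw [Q_act]; exact hQv) hQu
  obtain ⟨t₂, ht₂, h₂a, h₂b⟩ := move_sing dec hv₂ hu' (hne hv'0) hu'0 (by rw [Q_act]; exact hQv') hQu'
  obtain ⟨k, hk⟩ := exists_notMem_fin {i', j'} (lt_of_le_of_lt Finset.card_le_two (by omega))
  simp only [Finset.mem_insert, Finset.mem_singleton, not_or] at hk
  obtain ⟨r, hr, hrfix, hrΩ⟩ := corr_block dec hQ hn k (t₂ * t₁ * h)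
  refine ⟨r * (t₂ * t₁ * h), hrΩ, ?_, ?_, ?_⟩
  · exact (decompositionStabilizer D).mul_mem hr ((decompositionStabilizer D).mul_mem
      ((decompositionStabilizer D).mul_mem ht₂ ht₁) hst)
  · rw [act_mul, act_mul, act_mul, h₁a, h₂b u (dec.zero _ _ _ hij'.symm hu), hrfix u (dec.zero _ _ _ hk.1 hu)]
  · rw [act_mul, act_mul, act_mul, h₁b _ (dec.zero _ _ _ hij' hv₂), h₂a, hrfix u' (dec.zero _ _ _ hk.2 hu')]

namespace HS

variable (S : HS Q D π R c)
include S

theorem ne_two : 3 ≤ t := by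
  have := S.ht
  omega

/-- Scaling the second argument of a Siegel map. -/
theorem rt_scale {i j k : Fin t} (hij : i ≠ j) (hik : i ≠ k) (hjk : j ≠ k) {v v₂ e' f' w : ι → F} (hb : HB Q v v₂)
    (hv : v ∈ D i) (hv₂ : v₂ ∈ D i) (hb' : HB Q e' f') (he' : e' ∈ D k) (hf' : f' ∈ D k) (hw : w ∈ D j)
    (H : Rt Q R v w) {s : F} (hs : s ≠ 0) : Rt Q R v (s • w) := by
  have hΩ := tr_omega_two S.hQ S.hn hb hb' hs
  have hst : ((tr hb s hs * tr hb' s hs : 𝕀) : GL ι F) ∈ decompositionStabilizer D :=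
    (decompositionStabilizer D).mul_mem (tr_stab S.dec hb hv hv₂ s hs) (tr_stab S.dec hb' he' hf' s hs)
  have h1 := Rt.conj S.toSys _ hΩ hst H
  have e1 : act (tr hb s hs * tr hb' s hs) v = s • v := by
    rw [act_mul, tr_fix hb' s hs (S.dec.orth k i hik.symm _ he' _ hv) (S.dec.orth k i hik.symm _ hf' _ hv), tr_u]
  have e2 : act (tr hb s hs * tr hb' s hs) w = w := by
    rw [act_mul, tr_fix hb' s hs (S.dec.orth k j hjk.symm _ he' _ hw) (S.dec.orth k j hjk.symm _ hf' _ hw),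
      tr_fix hb s hs (S.dec.orth i j hij _ hv _ hw) (S.dec.orth i j hij _ hv₂ _ hw)]
  rw [e1, e2] at h1
  exact Rt.smul_left h1

/-- A Siegel map from a vector of the class with a singular nonzero component. -/
theorem seed_sing {a : ι → F} (ha : a ∈ R) {i : Fin t} (hQ0 : Q (π i a) = 0) (h0 : π i a ≠ 0) :
    ∃ (j : Fin t) (v' : ι → F), j ≠ i ∧ v' ∈ D j ∧ v' ≠ 0 ∧ Q v' = 0 ∧ Rt Q R (π i a) v' := by
  classical
  set v := π i a with hv
  have hvE : v ∈ D i := S.dec.mem i a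
  obtain ⟨v₂, hv₂, hb⟩ := exists_partner S.dec hvE h0 hQ0
  have hQa : Q a = c := S.norm a ha
  have hQa0 : Q a ≠ 0 := S.toSys.ne_zero_of_mem ha
  obtain ⟨j, hj, hji⟩ : ∃ j, π j a ≠ 0 ∧ j ≠ i := by
    by_contra hcon
    push Not at hcon
    apply hQa0
    rw [S.dec.Q_sum a]
    refine Finset.sum_eq_zero (fun l _ => ?_)
    by_cases hl : l = i
    · rw [hl]
      exact hQ0
    · by_cases h3 : π l a = 0
      · rw [h3, QuadraticMap.map_zero]
      · exact absurd (hcon l h3) hl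
  have hcard : ({i, j} : Finset (Fin t)).card < t :=
    lt_of_le_of_lt Finset.card_le_two (by have := S.ht; omega)
  obtain ⟨k, hk⟩ := exists_notMem_fin {i, j} hcard
  simp only [Finset.mem_insert, Finset.mem_singleton, not_or] at hk
  obtain ⟨hki, hkj⟩ := hk
  obtain ⟨e, f, he, hf, hbj⟩ := S.hyp j
  obtain ⟨e', f', he', hf', hbk⟩ := S.hyp k
  obtain ⟨ν₁, ν₂, hν₁, hν₂, h1₁, h1₂, h12⟩ := exists_sq_pair (F := F) S.hq
  -- the first Siegel map
  set n₁ := ν₁ * ν₁ with hn₁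
  have hn₁0 : n₁ ≠ 0 := mul_ne_zero hν₁ hν₁
  have hn₁1 : n₁ - 1 ≠ 0 := sub_ne_zero.2 h1₁
  have hfv₂a : 𝔣 v₂ a = 1 := by
    rw [S.dec.polar_comp hv₂, ← hv]
    exact hb.fvu
  have hfva : 𝔣 v a = 0 := by
    rw [S.dec.polar_comp hvE, ← hv]
    exact hb.fuu
  have ha₂ : a + (n₁ - 1) • v ∈ R := by
    have h1 := S.hinv _ (tr_omega_sq S.hQ S.hn hb hν₁ hn₁0) (tr_stab S.dec hb hvE hv₂ _ hn₁0) a ha
    rw [tr_act, hfv₂a, hfva, mul_one, mul_zero, zero_smul, add_zero] at h1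
    exact h1
  set u := (n₁ - 1) • v with hu
  have hQu : Q u = 0 := by rw [hu, Q_smul, hQ0, mul_zero]
  have hau : 𝔣 a u = 0 := by
    rw [hu, polar_smul_right', polar_comm, hfva, mul_zero]
  have hQa₂ : Q (a + u) ≠ 0 := S.toSys.ne_zero_of_mem ha₂
  have H1 : Rt Q R u ((Q a)⁻¹ • a) := by
    intro x hx
    rw [← refl_refl hQu hau hQa0 hQa₂]
    exact S.refl a ha _ (S.refl _ ha₂ x hx hQa₂) hQa0
  have H2 : Rt Q R v ((n₁ - 1) • ((Q a)⁻¹ • a)) := Rt.smul_left H1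
  set κ := (n₁ - 1) * (Q a)⁻¹ with hκ
  have hκ0 : κ ≠ 0 := mul_ne_zero hn₁1 (inv_ne_zero hQa0)
  set w₀ := κ • (a - v) with hw₀
  have hfvw₀ : 𝔣 v w₀ = 0 := by
    rw [hw₀, polar_smul_right', polar_sub_right, hfva, hb.fuu]
    ring
  have H3 : Rt Q R v w₀ := by
    intro x hx
    have e : (n₁ - 1) • ((Q a)⁻¹ • a) = w₀ + κ • v := by
      rw [hw₀, smul_smul, ← hκ, smul_sub, sub_add_cancel]
    have h3 := H2 x hx
    rw [e, EE_shift hQ0 hfvw₀] at h3
    exact h3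
  clear_value w₀
  have hfv_ne : ∀ {w : ι → F}, w ∈ D j → 𝔣 v w = 0 := fun hw => S.dec.orth i j hji.symm _ hvE _ hw
  have hne : ∀ {x : ι → F}, x ∈ D j → Rt Q R v x → ∀ {s : F}, s ≠ 0 → Rt Q R v (s • x) := by
    intro x hx H s hs
    exact S.rt_scale (Ne.symm hji) (Ne.symm hki) (Ne.symm hkj) hb hvE hv₂ hbk he' hf' hx H hs
  -- the rotations in the block `j`
  set α := 𝔣 f w₀ with hα
  set β := 𝔣 e w₀ with hβ
  have hfev : 𝔣 e v = 0 := S.dec.orth j i hji _ he _ hvE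
  have hffv : 𝔣 f v = 0 := S.dec.orth j i hji _ hf _ hvE
  have hαβ : α ≠ 0 ∨ β ≠ 0 := by
    by_contra hcon
    push Not at hcon
    have hα' : 𝔣 f (a - v) = 0 := by
      have := hcon.1
      rw [hα, hw₀, polar_smul_right'] at this
      exact (mul_eq_zero.1 this).resolve_left hκ0
    have hβ' : 𝔣 e (a - v) = 0 := by
      have := hcon.2
      rw [hβ, hw₀, polar_smul_right'] at this
      exact (mul_eq_zero.1 this).resolve_left hκ0
    apply hj
    refine eq_zero_of_perp S.dec hbj he hf (S.dec.mem j a) ?_ ?_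
    · rw [← S.dec.polar_comp he, ← sub_add_cancel a v, polar_add_right, hβ', hfev, add_zero]
    · rw [← S.dec.polar_comp hf, ← sub_add_cancel a v, polar_add_right, hα', hffv, add_zero]
  have Hn : ∀ ν : F, ∀ hν : ν ≠ 0, ν * ν ≠ 1 → Rt Q R v (α • e - ((ν * ν)⁻¹ * β) • f) := by
    intro ν hν h1
    have hs : ν * ν ≠ 0 := mul_ne_zero hν hν
    have hg := Rt.conj S.toSys _ (tr_omega_sq S.hQ S.hn hbj hν hs) (tr_stab S.dec hbj he hf _ hs) H3
    rw [tr_fix hbj _ hs hfev hffv] at hg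
    have hfvg : 𝔣 v (act (tr hbj (ν * ν) hs) w₀) = 0 := by
      rw [tr_act, polar_add_right, polar_add_right, polar_smul_right', polar_smul_right', hfvw₀, hfv_ne he, hfv_ne hf]
      ring
    have h3 := Rt.add hQ0 hfvg (by rw [polar_neg_right, hfvw₀, neg_zero]) hg (Rt.neg hQ0 hfvw₀ H3)
    have h4 : act (tr hbj (ν * ν) hs) w₀ + -w₀ = ((ν * ν - 1) * α) • e + (((ν * ν)⁻¹ - 1) * β) • f := by
      rw [tr_act, hα, hβ]
      abel
    rw [h4] at h3
    have hmem : ((ν * ν - 1) * α) • e + (((ν * ν)⁻¹ - 1) * β) • f ∈ D j :=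
      (D j).add_mem ((D j).smul_mem _ he) ((D j).smul_mem _ hf)
    have h5 := hne hmem h3 (inv_ne_zero (sub_ne_zero.2 h1))
    have h6 : (ν * ν - 1)⁻¹ • (((ν * ν - 1) * α) • e + (((ν * ν)⁻¹ - 1) * β) • f) = α • e - ((ν * ν)⁻¹ * β) • f := by
      have h7 : ν * ν - 1 ≠ 0 := sub_ne_zero.2 h1
      have c1 : (ν * ν - 1)⁻¹ * ((ν * ν - 1) * α) = α := by
        rw [← mul_assoc, inv_mul_cancel₀ h7, one_mul]
      have c2 : (ν * ν - 1)⁻¹ * (((ν * ν)⁻¹ - 1) * β) = -((ν * ν)⁻¹ * β) := by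
        have e1 : (ν * ν)⁻¹ - 1 = -((ν * ν)⁻¹ * (ν * ν - 1)) := by
          field_simp
          ring
        rw [e1, neg_mul, mul_neg, mul_assoc (ν * ν)⁻¹, mul_comm (ν * ν - 1) β, ← mul_assoc (ν * ν)⁻¹, mul_comm (ν * ν - 1)⁻¹,
          mul_assoc _ (ν * ν - 1), mul_inv_cancel₀ h7, mul_one]
      rw [smul_add, smul_smul, smul_smul, c1, c2, neg_smul, sub_eq_add_neg]
    rwa [h6] at h5
  by_cases hβ0 : β = 0
  · have hα0 : α ≠ 0 := hαβ.resolve_right (not_not.2 hβ0)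
    have h1 := Hn ν₁ hν₁ h1₁
    rw [hβ0, mul_zero, zero_smul, sub_zero] at h1
    have h3 := hne ((D j).smul_mem _ he) h1 (inv_ne_zero hα0)
    rw [smul_smul, inv_mul_cancel₀ hα0, one_smul] at h3
    exact ⟨j, e, hji, he, hbj.u_ne, hbj.Qu, h3⟩
  · have hmem : ∀ n : F, α • e - (n * β) • f ∈ D j := fun n =>
      (D j).sub_mem ((D j).smul_mem _ he) ((D j).smul_mem _ hf)
    have h1 := Hn ν₁ hν₁ h1₁
    have h3 := hne (hmem _) (Hn ν₂ hν₂ h1₂) (neg_ne_zero.2 one_ne_zero)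
    have hfvt : ∀ n : F, 𝔣 v (α • e - (n * β) • f) = 0 := fun n => hfv_ne (hmem n)
    have h4 := Rt.add hQ0 (hfvt _) (by rw [polar_smul_right', hfvt, mul_zero]) h1 h3
    have h5 : (α • e - ((ν₁ * ν₁)⁻¹ * β) • f) + (-1 : F) • (α • e - ((ν₂ * ν₂)⁻¹ * β) • f) =
        (((ν₂ * ν₂)⁻¹ - (ν₁ * ν₁)⁻¹) * β) • f := by
      rw [neg_smul, one_smul, sub_mul, sub_smul]
      abel
    rw [h5] at h4
    have hne' : (ν₂ * ν₂)⁻¹ - (ν₁ * ν₁)⁻¹ ≠ 0 := by
      intro h
      apply h12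
      have := inv_injective (sub_eq_zero.1 h)
      exact this.symm
    have hs0 : ((ν₂ * ν₂)⁻¹ - (ν₁ * ν₁)⁻¹) * β ≠ 0 := mul_ne_zero hne' hβ0
    have h6 := hne ((D j).smul_mem _ hf) h4 (inv_ne_zero hs0)
    rw [smul_smul, inv_mul_cancel₀ hs0, one_smul] at h6
    exact ⟨j, f, hji, hf, hbj.v_ne, hbj.Qv, h6⟩

/-- The Siegel maps for singular vectors in any two members. -/
theorem all_rt {a : ι → F} (ha : a ∈ R) {i : Fin t} (hQ0 : Q (π i a) = 0) (h0 : π i a ≠ 0) {i' j' : Fin t} (hij' : i' ≠ j')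
    {u u' : ι → F} (hu : u ∈ D i') (hu' : u' ∈ D j') (hu0 : u ≠ 0) (hu'0 : u' ≠ 0) (hQu : Q u = 0) (hQu' : Q u' = 0) :
    Rt Q R u u' := by
  obtain ⟨j, v', hji, hv', hv'0, hQv', H⟩ := S.seed_sing ha hQ0 h0
  obtain ⟨G, hG, hGS, h1, h3⟩ := transport S.dec S.hQ S.hn S.iso S.ne_two hji.symm hij' (S.dec.mem i a) hv' hu hu' h0 hv'0 hu0
    hu'0 hQ0 hQv' hQu hQu'
  have := Rt.conj S.toSys G hG hGS H
  rwa [h1, h3] at this

/-- The Siegel maps for a singular vector and any vector of another member. -/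
theorem all_rt' {a : ι → F} (ha : a ∈ R) {i : Fin t} (hQ0 : Q (π i a) = 0) (h0 : π i a ≠ 0) {i' j' : Fin t} (hij' : i' ≠ j')
    {u w : ι → F} (hu : u ∈ D i') (hw : w ∈ D j') (hu0 : u ≠ 0) (hQu : Q u = 0) : Rt Q R u w := by
  obtain ⟨e, f, he, hf, hb⟩ := S.hyp j'
  have hsm : ∀ {x : ι → F}, x ∈ D j' → x ≠ 0 → Q x = 0 → ∀ s : F, Rt Q R u (s • x) := by
    intro x hx hx0 hQx s
    by_cases hs : s = 0
    · intro y hy
      rw [hs, zero_smul, EE_zero]
      exact hy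
    · exact S.all_rt ha hQ0 h0 hij' hu ((D j').smul_mem _ hx) hu0 (smul_ne_zero hs hx0) hQu (by rw [Q_smul, hQx, mul_zero])
  rw [coord_hb S.dec hb he hf hw]
  exact Rt.add hQu (S.dec.orth i' j' hij' _ hu _ ((D j').smul_mem _ he)) (S.dec.orth i' j' hij' _ hu _ ((D j').smul_mem _ hf))
    (hsm he hb.u_ne hb.Qu _) (hsm hf hb.v_ne hb.Qv _)

/-- A vector of the class with a singular nonzero component gives all vectors of the norm. -/
theorem of_sing {a : ι → F} (ha : a ∈ R) {i : Fin t} (hQ0 : Q (π i a) = 0) (h0 : π i a ≠ 0) : ∀ x, Q x = c → x ∈ R := by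
  classical
  intro x hx
  induction hn : (supp π x).card using Nat.strong_induction_on generalizing x with
  | _ n ih =>
    by_cases hno : ∀ i, x ∉ D i
    · have hx0 : x ≠ 0 := by
        rintro rfl
        rw [QuadraticMap.map_zero] at hx
        exact S.hc hx.symm
      obtain ⟨i₁, j₁, hij, hi₁, hj₁⟩ := S.dec.exists_two_comps hx0 hno
      obtain ⟨e, f, he, hf, hb⟩ := S.hyp i₁
      obtain ⟨u, hu, hu0, hQu, hfu⟩ : ∃ u, u ∈ D i₁ ∧ u ≠ 0 ∧ Q u = 0 ∧ 𝔣 u x ≠ 0 := by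
        by_cases h1 : 𝔣 e x = 0
        · refine ⟨f, hf, hb.v_ne, hb.Qv, fun h3 => hi₁ ?_⟩
          refine eq_zero_of_perp S.dec hb he hf (S.dec.mem i₁ x) ?_ ?_
          · rw [← S.dec.polar_comp he]
            exact h1
          · rw [← S.dec.polar_comp hf]
            exact h3
        · exact ⟨e, he, hb.u_ne, hb.Qu, h1⟩
      obtain ⟨w, hw⟩ : ∃ w, w = (-(𝔣 u x)⁻¹) • π j₁ x := ⟨_, rfl⟩
      have hwE : w ∈ D j₁ := by
        rw [hw]
        exact (D j₁).smul_mem _ (S.dec.mem j₁ x)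
      have huw : 𝔣 u w = 0 := S.dec.orth i₁ j₁ hij _ hu _ hwE
      set x' := EE Q u w x with hx'
      have hQx' : Q x' = c := by rw [hx', Q_EE hQu huw, hx]
      have hπ : ∀ l, l ≠ i₁ → l ≠ j₁ → π l x' = π l x := by
        intro l h1 h3
        rw [hx']
        unfold EE
        rw [map_sub, map_sub, map_add, map_smul, map_smul, map_smul, S.dec.zero l j₁ _ h3 hwE, S.dec.zero l i₁ _ h1 hu]
        simp
      have hπj : π j₁ x' = 0 := by
        rw [hx']
        unfold EE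
        rw [map_sub, map_sub, map_add, map_smul, map_smul, map_smul, S.dec.idem j₁ _ hwE, S.dec.zero j₁ i₁ _ hij.symm hu, hw,
          smul_smul, mul_neg, mul_inv_cancel₀ hfu]
        simp
      have hlt : (supp π x').card < n := by
        rw [← hn]
        apply Finset.card_lt_card
        rw [Finset.ssubset_iff_of_subset]
        · refine ⟨j₁, mem_supp.2 hj₁, ?_⟩
          rw [mem_supp, not_not]
          exact hπj
        · intro l hl
          rw [mem_supp] at hl ⊢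
          by_cases h1 : l = i₁
          · rw [h1]
            exact hi₁
          by_cases h3 : l = j₁
          · rw [h3] at hl
            exact absurd hπj hl
          · rwa [hπ l h1 h3] at hl
      have hx'R := ih _ hlt x' hQx' rfl
      have hmw : Rt Q R u (-w) := S.all_rt' ha hQ0 h0 hij hu ((D j₁).neg_mem hwE) hu0 hQu
      have h5 := hmw x' hx'R
      rw [hx', EE_add hQu (by rw [polar_neg_right, huw, neg_zero]) huw, neg_add_cancel, EE_zero] at h5
      exact h5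
    · push Not at hno
      obtain ⟨l, hl⟩ := hno
      exact S.mem l x hl hx

end HS

end Cfsg.Agent.Lib.Classical.Decomp.Hyp
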