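/-
Decompositions into hyperbolic planes: diagonal elements and a field lemma.
-/
import Mathlib
import Cfsg.Agent.Lib.Classical.Decomp.Hyp.Sing

set_option autoImplicit false
set_option linter.unusedSectionVars false
set_option linter.unusedSimpArgs false
set_option linter.unusedVariables false

namespace Cfsg.Agent.Lib.Classical.Decomp.Hyp

open Matrix QuadraticMap Module Cfsg.Geo
open Cfsg.Agent.Lib.Classical.Decomp
open Cfsg.Agent.Lib.Classical.Decomp.Ev
open Cfsg.Agent.Lib.Classical.Orth.Basic
open Cfsg.Agent.Lib.Classical.Orth.Spinor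

variable {ι : Type} [Fintype ι] [DecidableEq ι] {F : Type*} [Field F] [Fintype F]
variable {Q : QuadraticForm F (ι → F)}

set_option quotPrecheck false in
local notation "𝔣" => polar (⇑Q)
set_option quotPrecheck false in
local notation "𝕀" => ↥(Cfsg.isometryGroup F (⇑Q))

variable {t : ℕ} {D : Fin t → Submodule F (ι → F)} {π : Fin t → (ι → F) →ₗ[F] (ι → F)}
variable {R : Set (ι → F)} {c : F}

omit [Fintype ι] [DecidableEq ι] in
/-- An element of a large field with fourth power different from one. -/
theorem exists_nu (hq : 7 ≤ Fintype.card F) : ∃ ν : F, ν ≠ 0 ∧ (ν * ν) * (ν * ν) ≠ 1 := by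
  obtain ⟨ν₁, ν₂, h1, h3, h4, h5, h6⟩ := exists_sq_pair (F := F) hq
  by_cases h : (ν₁ * ν₁) * (ν₁ * ν₁) = 1
  · refine ⟨ν₂, h3, fun h' => ?_⟩
    have e1 : (ν₁ * ν₁ - 1) * (ν₁ * ν₁ + 1) = 0 := by linear_combination h
    have e2 : (ν₂ * ν₂ - 1) * (ν₂ * ν₂ + 1) = 0 := by linear_combination h'
    have e3 := (mul_eq_zero.1 e1).resolve_left (sub_ne_zero.2 h4)
    have e4 := (mul_eq_zero.1 e2).resolve_left (sub_ne_zero.2 h5)
    exact h6 (by linear_combination e3 - e4)
  · exact ⟨ν₁, h1, h⟩

omit [Fintype ι] [DecidableEq ι] in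
/-- The map `l ↦ l + l⁻¹` takes at least half of the values. -/
theorem mu_card [DecidableEq F] (h2 : (2 : F) ≠ 0) :
    Fintype.card F + 1 ≤ 2 * (((Finset.univ : Finset F).erase 0).image (fun l : F => l + l⁻¹)).card := by
  have hq := Fintype.one_lt_card (α := F)
  set T := (((Finset.univ : Finset F).erase 0).erase 1).erase (-1) with hT
  have hne1 : (-1 : F) ≠ 1 := by
    intro h
    apply h2
    linear_combination -h
  have hTc : T.card + 3 = Fintype.card F := by
    have h1 : (-1 : F) ∈ ((Finset.univ : Finset F).erase 0).erase 1 := by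
      simp [hne1]
    have h3 : (1 : F) ∈ (Finset.univ : Finset F).erase 0 := by simp
    rw [hT, Finset.card_erase_of_mem h1, Finset.card_erase_of_mem h3, Finset.card_erase_of_mem (Finset.mem_univ _),
      Finset.card_univ]
    have : 3 ≤ Fintype.card F := by
      have := odd_card_of_two h2
      omega
    omega
  set I := T.image (fun l : F => l + l⁻¹) with hI
  have h1 : T.card ≤ 2 * I.card := by
    refine Finset.card_le_mul_card_image T 2 (fun a ha => ?_)
    obtain ⟨z, hz, rfl⟩ := Finset.mem_image.1 ha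
    have hz0 : z ≠ 0 := by
      intro h
      rw [h] at hz
      simp [hT] at hz
    have hsub : T.filter (fun x => x + x⁻¹ = z + z⁻¹) ⊆ {z, z⁻¹} := by
      intro x hx
      obtain ⟨hx1, hx2⟩ := Finset.mem_filter.1 hx
      have hx0 : x ≠ 0 := by
        intro h
        rw [h] at hx1
        simp [hT] at hx1
      have h4 : (x - z) * (x * z - 1) = 0 := by
        have h5 : (x + x⁻¹) * (x * z) = (z + z⁻¹) * (x * z) := by rw [hx2]
        have h6 : x⁻¹ * (x * z) = z := by
          rw [← mul_assoc, inv_mul_cancel₀ hx0, one_mul]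
        have h7 : z⁻¹ * (x * z) = x := by
          rw [mul_comm x z, ← mul_assoc, inv_mul_cancel₀ hz0, one_mul]
        have h8 : x * (x * z) + x⁻¹ * (x * z) = z * (x * z) + z⁻¹ * (x * z) := by
          rw [← add_mul, ← add_mul, hx2]
        rw [h6, h7] at h8
        linear_combination h8
      rcases mul_eq_zero.1 h4 with h5 | h5
      · simp [sub_eq_zero.1 h5]
      · have h6 : x = z⁻¹ := eq_inv_of_mul_eq_one_left (sub_eq_zero.1 h5)
        simp [h6]
    exact (Finset.card_le_card hsub).trans Finset.card_le_two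
  have h2I : (2 : F) ∉ I := by
    intro h
    obtain ⟨x, hx, he⟩ := Finset.mem_image.1 h
    have hx0 : x ≠ 0 := by
      intro h
      rw [h] at hx
      simp [hT] at hx
    have hx1 : x ≠ 1 := by
      intro h
      rw [h] at hx
      simp [hT] at hx
    apply hx1
    have h5 : (x - 1) * (x - 1) = 0 := by
      have h6 : x * (x + x⁻¹) = x * 2 := by rw [he]
      rw [mul_add, mul_inv_cancel₀ hx0] at h6
      linear_combination h6
    exact sub_eq_zero.1 (mul_self_eq_zero.1 h5)
  have hm2I : (-2 : F) ∉ I := by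
    intro h
    obtain ⟨x, hx, he⟩ := Finset.mem_image.1 h
    have hx0 : x ≠ 0 := by
      intro h
      rw [h] at hx
      simp [hT] at hx
    have hx1 : x ≠ -1 := by
      intro h
      rw [h] at hx
      simp [hT] at hx
    apply hx1
    have h5 : (x + 1) * (x + 1) = 0 := by
      have h6 : x * (x + x⁻¹) = x * (-2) := by rw [he]
      rw [mul_add, mul_inv_cancel₀ hx0] at h6
      linear_combination h6
    exact eq_neg_of_add_eq_zero_left (mul_self_eq_zero.1 h5)
  have h22 : (2 : F) ≠ -2 := by
    intro h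
    have h5 : (2 : F) * 2 = 0 := by linear_combination h
    exact (mul_ne_zero h2 h2) h5
  have hsub : insert (2 : F) (insert (-2 : F) I) ⊆ (Finset.univ.erase 0).image (fun l : F => l + l⁻¹) := by
    intro y hy
    rcases Finset.mem_insert.1 hy with h | hy
    · refine Finset.mem_image.2 ⟨1, by simp, ?_⟩
      rw [h, inv_one]
      norm_num
    rcases Finset.mem_insert.1 hy with h | hy
    · refine Finset.mem_image.2 ⟨-1, by simp, ?_⟩
      rw [h, inv_neg, inv_one]
      norm_num
    · obtain ⟨x, hx, he⟩ := Finset.mem_image.1 hy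
      refine Finset.mem_image.2 ⟨x, ?_, he⟩
      have hx0 : x ≠ 0 := by
        intro h
        rw [h] at hx
        simp [hT] at hx
      simp [hx0]
  have h3 := Finset.card_le_card hsub
  rw [Finset.card_insert_of_notMem (by simp [h22, h2I]), Finset.card_insert_of_notMem hm2I] at h3
  omega

omit [Fintype ι] [DecidableEq ι] in
/-- Every element is a combination of two values of `l ↦ l + l⁻¹`. -/
theorem mu_sum (h2 : (2 : F) ≠ 0) {A B : F} (hA : A ≠ 0) (hB : B ≠ 0) (x : F) :
    ∃ s s' : F, s ≠ 0 ∧ s' ≠ 0 ∧ A * (s + s⁻¹) + B * (s' + s'⁻¹) = x := by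
  classical
  have hM' := mu_card (F := F) h2
  set M := (Finset.univ.erase 0).image (fun l : F => l + l⁻¹) with hMd
  set X := M.image (fun z => A * z) with hX
  set Y := M.image (fun z => x - B * z) with hY
  have hXc : X.card = M.card := Finset.card_image_of_injective _ (fun a b h => mul_left_cancel₀ hA h)
  have hYc : Y.card = M.card := Finset.card_image_of_injective _ (fun a b h => by
    have h5 : B * a = B * b := by
      have h6 : x - B * a = x - B * b := h
      linear_combination -h6
    exact mul_left_cancel₀ hB h5)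
  have hlt : (Finset.univ : Finset F).card < X.card + Y.card := by
    rw [hXc, hYc, Finset.card_univ]
    omega
  obtain ⟨y, hy⟩ := Finset.inter_nonempty_of_card_lt_card_add_card (Finset.subset_univ _) (Finset.subset_univ _) hlt
  obtain ⟨h4, h5⟩ := Finset.mem_inter.1 hy
  obtain ⟨m, hm, rfl⟩ := Finset.mem_image.1 h4
  obtain ⟨m', hm', he⟩ := Finset.mem_image.1 h5
  obtain ⟨s, hs, rfl⟩ := Finset.mem_image.1 hm
  obtain ⟨s', hs', rfl⟩ := Finset.mem_image.1 hm'
  refine ⟨s, s', (Finset.mem_erase.1 hs).1, (Finset.mem_erase.1 hs').1, ?_⟩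
  linear_combination -he

omit [Fintype ι] [DecidableEq ι] in
/-- In a nonprime field, an element avoiding the roots of `X² + X + 1`. -/
theorem exists_not_cube (hq : 7 ≤ Fintype.card F) : ∃ l : F, l ≠ 0 ∧ l ≠ 1 ∧ l * l + l + 1 ≠ 0 := by
  classical
  by_contra hcon
  push Not at hcon
  set T := ((Finset.univ : Finset F).erase 0).erase 1 with hT
  have hTc : T.card + 2 = Fintype.card F := by
    have h3 : (1 : F) ∈ (Finset.univ : Finset F).erase 0 := by simp
    rw [hT, Finset.card_erase_of_mem h3, Finset.card_erase_of_mem (Finset.mem_univ _), Finset.card_univ]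
    omega
  obtain ⟨x, y, z, hx, hy, hz, hxy, hxz, hyz⟩ := Finset.two_lt_card_iff.1 (by omega : 2 < T.card)
  have hr : ∀ w ∈ T, w * w + w + 1 = 0 := by
    intro w hw
    have h1 := Finset.mem_erase.1 hw
    have h3 := Finset.mem_erase.1 h1.2
    exact hcon w h3.1 h1.1
  have h1 := hr x hx
  have h3 := hr y hy
  have h4 := hr z hz
  have e1 : (x - y) * (x + y + 1) = 0 := by linear_combination h1 - h3
  have e2 : (x - z) * (x + z + 1) = 0 := by linear_combination h1 - h4
  have e3 := (mul_eq_zero.1 e1).resolve_left (sub_ne_zero.2 hxy)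
  have e4 := (mul_eq_zero.1 e2).resolve_left (sub_ne_zero.2 hxz)
  exact hyz (by linear_combination e3 - e4)

section Diag

variable {e f : Fin t → ι → F} (dec : Dec Q 2 D π) (he : ∀ l, e l ∈ D l) (hf : ∀ l, f l ∈ D l) (hb : ∀ l, HB Q (e l) (f l))

/-- The norm of a component in coordinates. -/
theorem comp_norm {l : Fin t} {u v : ι → F} (dec : Dec Q 2 D π) (hb : HB Q u v) (hu : u ∈ D l) (hv : v ∈ D l) (x : ι → F) :
    Q (π l x) = 𝔣 v x * 𝔣 u x := by
  have h1 := coord_hb dec hb hu hv (dec.mem l x)
  rw [← dec.polar_comp hu, ← dec.polar_comp hv] at h1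
  rw [h1]
  exact hb.Q_comb _ _

theorem comp_eq {l : Fin t} {u v : ι → F} (dec : Dec Q 2 D π) (hb : HB Q u v) (hu : u ∈ D l) (hv : v ∈ D l) (x : ι → F) :
    π l x = (𝔣 v x) • u + (𝔣 u x) • v := by
  have h1 := coord_hb dec hb hu hv (dec.mem l x)
  rwa [← dec.polar_comp hu, ← dec.polar_comp hv] at h1

theorem tr_signs {u v : ι → F} (h2 : (2 : F) ≠ 0) (hb : HB Q u v) {s : F} (hs : s ≠ 0) :
    plusSign Q (tr hb s hs) = eps s ∧ spinorSign Q h2 (tr hb s hs) = eps s := by
  have hQ1 : Q (u + v) = 1 := by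
    have := hb.Q_comb 1 1
    rwa [one_smul, one_smul, one_mul] at this
  have hQs : Q (u + s • v) = s := by
    have := hb.Q_comb 1 s
    rwa [one_smul, one_mul] at this
  unfold tr
  rw [map_mul, map_mul, plusSign_reflection Q h2, plusSign_reflection Q h2, spinorSign_reflection Q h2,
    spinorSign_reflection Q h2, hQ1, hQs]
  by_cases h : IsSquare s
  · rw [eps_of_sq h, if_pos h, if_pos h, if_pos IsSquare.one, if_pos IsSquare.one]
    decide
  · rw [eps_of_not_sq h, if_neg h, if_neg h, if_pos IsSquare.one, if_pos IsSquare.one]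
    decide

include dec he hf hb in
/-- The diagonal elements. -/
theorem exists_diag (s : Fin t → F) (hs : ∀ l, s l ≠ 0) (J : Finset (Fin t)) :
    ∃ g : 𝕀, (g : GL ι F) ∈ decompositionStabilizer D ∧
      (∀ l x, π l (act g x) = if l ∈ J then (s l * 𝔣 (f l) x) • e l + ((s l)⁻¹ * 𝔣 (e l) x) • f l else π l x) ∧
      (∀ h2 : (2 : F) ≠ 0, plusSign Q g = ∏ l ∈ J, eps (s l) ∧ spinorSign Q h2 g = ∏ l ∈ J, eps (s l)) := by
  classical
  induction J using Finset.induction_on with
  | empty =>
    exact ⟨1, (decompositionStabilizer D).one_mem, fun l x => by simp [act_one], fun h2 => by simp⟩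
  | insert l J hl ih =>
    obtain ⟨g, hg, hgp, hgs⟩ := ih
    refine ⟨tr (hb l) (s l) (hs l) * g, (decompositionStabilizer D).mul_mem (tr_stab dec (hb l) (he l) (hf l) _ _) hg, ?_, ?_⟩
    · intro m x
      rw [act_mul, tr_act, map_add, map_add, map_smul, map_smul]
      by_cases hm : m = l
      · subst hm
        rw [if_pos (Finset.mem_insert_self _ _), dec.idem _ _ (he m), dec.idem _ _ (hf m)]
        have h1 := hgp m x
        rw [if_neg hl] at h1
        have h3 : ∀ w ∈ D m, 𝔣 w (act g x) = 𝔣 w x := by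
          intro w hw
          rw [dec.polar_comp hw, h1, ← dec.polar_comp hw]
        rw [h3 _ (he m), h3 _ (hf m), h1, comp_eq dec (hb m) (he m) (hf m) x]
        have hs0 := hs m
        ext j
        simp only [Pi.add_apply, Pi.smul_apply, smul_eq_mul]
        ring
      · rw [dec.zero _ _ _ hm (he l), dec.zero _ _ _ hm (hf l), smul_zero, smul_zero, add_zero, add_zero, hgp]
        simp only [Finset.mem_insert, hm, false_or]
    · intro h2
      obtain ⟨h1, h3⟩ := hgs h2
      obtain ⟨h4, h5⟩ := tr_signs h2 (hb l) (hs l)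
      rw [map_mul, map_mul, h1, h3, h4, h5, Finset.prod_insert hl]
      exact ⟨rfl, rfl⟩

include dec hb he hf in
/-- The polar form of a vector with its image under a diagonal element. -/
theorem diag_polar (s : Fin t → F) (hs : ∀ l, s l ≠ 0) (J : Finset (Fin t)) {g : 𝕀}
    (hg : ∀ l x, π l (act g x) = if l ∈ J then (s l * 𝔣 (f l) x) • e l + ((s l)⁻¹ * 𝔣 (e l) x) • f l else π l x)
    (a : ι → F) : 𝔣 a (act g a) = 2 * Q a + ∑ l ∈ J, Q (π l a) * (s l + (s l)⁻¹ - 2) := by
  classical
  rw [dec.polar_sum]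
  have h1 : ∀ l, 𝔣 (π l a) (π l (act g a)) = 2 * Q (π l a) + if l ∈ J then Q (π l a) * (s l + (s l)⁻¹ - 2) else 0 := by
    intro l
    rw [hg]
    by_cases hl : l ∈ J
    · rw [if_pos hl, if_pos hl, polar_add_right, polar_smul_right', polar_smul_right', ← dec.polar_comp' (he l),
        ← dec.polar_comp' (hf l), comp_norm dec (hb l) (he l) (hf l) a, polar_comm (⇑Q) a (e l), polar_comm (⇑Q) a (f l)]
      ring
    · rw [if_neg hl, if_neg hl, polar_self_eq]
      ring
  rw [Finset.sum_congr rfl (fun l _ => h1 l), Finset.sum_add_distrib, ← Finset.mul_sum, ← dec.Q_sum, Finset.sum_ite_mem,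
    Finset.univ_inter]

end Diag

end Cfsg.Agent.Lib.Classical.Decomp.Hyp
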