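/-
Decompositions into hyperbolic planes: the last step.
-/
import Mathlib
import Cfsg.Agent.Lib.Classical.Decomp.Hyp.Diag

set_option autoImplicit false
set_option linter.unusedSectionVars false
set_option linter.unusedSimpArgs false
set_option linter.unusedVariables false

namespace Cfsg.Agent.Lib.Classical.Decomp.Hyp

open Matrix QuadraticMap Module Cfsg.Geo
open Cfsg.Agent.Lib.Classical.Decomp
open Cfsg.Agent.Lib.Classical.Decomp.Ev
open Cfsg.Agent.Lib.Classical.Orth.Basic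
open Cfsg.Agent.Lib.Classical.Orth.Spinor

variable {ι : Type} [Fintype ι] [DecidableEq ι] {F : Type*} [Field F] [Fintype F]
variable {Q : QuadraticForm F (ι → F)}

set_option quotPrecheck false in
local notation "𝔣" => polar (⇑Q)
set_option quotPrecheck false in
local notation "𝕀" => ↥(Cfsg.isometryGroup F (⇑Q))

variable {t : ℕ} {D : Fin t → Submodule F (ι → F)} {π : Fin t → (ι → F) →ₗ[F] (ι → F)}
variable {M : Subgroup (GL ι F)}

/-- The vectors of a hyperbolic plane used for the rotations. -/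
theorem hyp_rot (hq : 7 ≤ Fintype.card F) {E : Submodule F (ι → F)} {e f : ι → F} (he : e ∈ E) (hf : f ∈ E) (hb : HB Q e f) :
    ∃ u u' : ι → F, u ∈ E ∧ u' ∈ E ∧ Q u = Q u' ∧ Q u ≠ 0 ∧ 𝔣 u u' * (4 * Q u ^ 2 - 𝔣 u u' ^ 2) ≠ 0 := by
  obtain ⟨ν, hν, hν4⟩ := exists_nu (F := F) hq
  have hQ1 : Q (e + f) = 1 := by
    have := hb.Q_comb 1 1
    rwa [one_smul, one_smul, one_mul] at this
  have hQ2 : Q (ν • e + ν⁻¹ • f) = 1 := by
    rw [hb.Q_comb, mul_inv_cancel₀ hν]
  refine ⟨e + f, ν • e + ν⁻¹ • f, E.add_mem he hf, E.add_mem (E.smul_mem _ he) (E.smul_mem _ hf), by rw [hQ1, hQ2], ?_, ?_⟩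
  · rw [hQ1]
    exact one_ne_zero
  · have h1 : 𝔣 (e + f) (ν • e + ν⁻¹ • f) = ν⁻¹ + ν := by
      rw [polar_add_left, hb.f_comb_right, hb.f_comb_right']
    rw [hQ1, h1]
    have h5 : ν⁻¹ + ν ≠ 0 := by
      intro h
      apply hν4
      have h7 : ν * (ν⁻¹ + ν) = 0 := by rw [h, mul_zero]
      rw [mul_add, mul_inv_cancel₀ hν] at h7
      have h8 : ν * ν = -1 := by linear_combination h7
      rw [h8]
      ring
    have h6 : ν⁻¹ - ν ≠ 0 := by
      intro h
      apply hν4
      have h7 : ν * (ν⁻¹ - ν) = 0 := by rw [h, mul_zero]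
      rw [mul_sub, mul_inv_cancel₀ hν] at h7
      have h8 : ν * ν = 1 := by linear_combination -h7
      rw [h8]
      ring
    have e1 : (ν⁻¹ + ν) * (4 * 1 ^ 2 - (ν⁻¹ + ν) ^ 2) = -((ν⁻¹ + ν) * ((ν⁻¹ - ν) * (ν⁻¹ - ν))) := by
      have h7 : ν⁻¹ * ν = 1 := inv_mul_cancel₀ hν
      linear_combination (-(4 * (ν⁻¹ + ν))) * h7
    rw [e1]
    exact neg_ne_zero.2 (mul_ne_zero h5 (mul_ne_zero h6 h6))

namespace FS

variable (S : FS Q 2 D π M)
include S

/-- The involution step. -/
theorem tau_core (ht : 7 ≤ t) {m : 𝕀} (hm : (m : GL ι F) ∈ M) {i₀ : Fin t} {x : ι → F} (hx : x ∈ D i₀) (h0 : Q x ≠ 0)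
    {i j : Fin t} (hij : i ≠ j) {w w' : ι → F} (hw : w ∈ D i) (hw' : w' ∈ D j) (hQw : Q w ≠ 0) (hQw' : Q w' ≠ 0)
    (hsq : IsSquare (Q w / Q w')) (hwy : 𝔣 w (act m x) = 0) (hwy' : 𝔣 w' (act m x) = 0) :
    ∃ l₀, π l₀ (act m⁻¹ w) = 0 := by
  classical
  have hw0 : w ≠ 0 := by
    rintro rfl
    exact hQw (QuadraticMap.map_zero _)
  set y := act m x with hy
  set a := act m⁻¹ w with ha
  set a' := act m⁻¹ w' with ha'
  have hww : 𝔣 w w' = 0 := S.dec.orth i j hij _ hw _ hw'
  set τ : 𝕀 := reflectionIso Q w hQw * reflectionIso Q w' hQw' with hτ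
  have hτM : (τ : GL ι F) ∈ M := S.mem_M (pair_omega_sq S.hQ S.hn hQw hQw' hsq)
    ((decompositionStabilizer D).mul_mem (refl_stab S.dec hw hQw) (refl_stab S.dec hw' hQw'))
  have hτact : ∀ z, act τ z = z - ((Q w')⁻¹ * 𝔣 w' z) • w' - ((Q w)⁻¹ * 𝔣 w z) • w := by
    intro z
    rw [hτ, act_mul, reflectionIso_act w' hQw', reflectionIso_act w hQw, polar_sub_right,
      polar_smul_right', hww, mul_zero, sub_zero]
  set ς : 𝕀 := m⁻¹ * τ * m with hς
  have hςM : (ς : GL ι F) ∈ M := M.mul_mem (M.mul_mem (M.inv_mem hm) hτM) hm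
  have hςact : ∀ z, act ς z = z - ((Q w')⁻¹ * 𝔣 w' (act m z)) • a' - ((Q w)⁻¹ * 𝔣 w (act m z)) • a := by
    intro z
    rw [hς, act_mul, act_mul, hτact, act_sub, act_sub, act_smul, act_smul, act_inv_act]
  have hςx : act ς x = x := by
    rw [hςact, ← hy, hwy, hwy']
    simp
  have hςS : (ς : GL ι F) ∈ decompositionStabilizer D :=
    S.F1 ς hςM i₀ i₀ x hx h0 (by rw [hςx]; exact hx)
  obtain ⟨σ, hσ⟩ := stab_maps hςS
  by_contra hcon
  have hne : ∀ l, π l a ≠ 0 := by
    intro l hl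
    exact hcon ⟨l, hl⟩
  have hd : ∀ l, ∃ d ∈ D l, 𝔣 a d ≠ 0 := by
    intro l
    obtain ⟨-, d, hd, hd1⟩ := S.dec.nd l _ (S.dec.mem l a) (hne l)
    refine ⟨d, hd, ?_⟩
    rw [S.dec.polar_comp' hd a]
    exact hd1
  choose d hdm hda using hd
  let α : Fin t → F := fun l => (Q w)⁻¹ * 𝔣 w (act m (d l))
  let β : Fin t → F := fun l => (Q w')⁻¹ * 𝔣 w' (act m (d l))
  have hα : ∀ l, α l ≠ 0 := by
    intro l
    refine mul_ne_zero (inv_ne_zero hQw) ?_
    have : 𝔣 w (act m (d l)) = 𝔣 a (d l) := by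
      have h7 := polar_act m a (d l)
      rw [ha, act_act_inv] at h7
      exact h7
    rw [this]
    exact hda l
  have hcomp : ∀ l r, r ≠ l → r ≠ σ l → α l • π r a + β l • π r a' = 0 := by
    intro l r h1 h3
    have h4 : act ς (d l) ∈ D (σ l) := hσ l _ (hdm l)
    have h5 : π r (act ς (d l)) = 0 := S.dec.zero r (σ l) _ h3 h4
    have h6 : π r (d l) = 0 := S.dec.zero r l _ h1 (hdm l)
    rw [hςact, map_sub, map_sub, h6, map_smul, map_smul] at h5
    have h7 : α l • π r a + β l • π r a' = -(0 - β l • π r a' - α l • π r a) := by abel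
    rw [h7]
    change -(0 - β l • π r a' - α l • π r a) = 0
    rw [h5, neg_zero]
  let l₁ : Fin t := ⟨0, by omega⟩
  obtain ⟨l₂, hl₂⟩ : ∃ l, l ∉ ({l₁, σ l₁, σ⁻¹ l₁} : Finset (Fin t)) := by
    by_contra hc
    push Not at hc
    have h1 : (Finset.univ : Finset (Fin t)) ⊆ {l₁, σ l₁, σ⁻¹ l₁} := fun l _ => hc l
    have h3 := Finset.card_le_card h1
    rw [Finset.card_univ, Fintype.card_fin] at h3
    have := h3.trans Finset.card_le_three
    omega
  obtain ⟨l₃, hl₃⟩ : ∃ l, l ∉ ({l₁, σ l₁, σ⁻¹ l₁, l₂, σ l₂, σ⁻¹ l₂} : Finset (Fin t)) := by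
    by_contra hc
    push Not at hc
    have h1 : (Finset.univ : Finset (Fin t)) ⊆ {l₁, σ l₁, σ⁻¹ l₁, l₂, σ l₂, σ⁻¹ l₂} := fun l _ => hc l
    have h3 := Finset.card_le_card h1
    rw [Finset.card_univ, Fintype.card_fin] at h3
    have := h3.trans Finset.card_le_six
    omega
  simp only [Finset.mem_insert, Finset.mem_singleton, not_or] at hl₂ hl₃
  obtain ⟨h21, h22, h23⟩ := hl₂
  obtain ⟨h31, h32, h33, h34, h35, h36⟩ := hl₃
  have hinv : ∀ {p q : Fin t}, p ≠ σ⁻¹ q → σ p ≠ q := by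
    intro p q h1 h3
    apply h1
    rw [← h3]
    simp
  have hres := three_support (A := fun r => π r a) (B := fun r => π r a') (S₁ := fun r => r = l₁ ∨ r = σ l₁)
    (S₂ := fun r => r = l₂ ∨ r = σ l₂) (S₃ := fun r => r = l₃ ∨ r = σ l₃)
    (hα l₁) (hα l₂) (hα l₃)
    (by
      rintro r (rfl | rfl) (rfl | h)
      · exact h21 rfl
      · exact (hinv h23).elim h.symm
      · exact h22 rfl
      · exact h21 (σ.injective h).symm)
    (by
      rintro r (rfl | rfl) (rfl | h)
      · exact h31 rfl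
      · exact (hinv h33).elim h.symm
      · exact h32 rfl
      · exact h31 (σ.injective h).symm)
    (by
      rintro r (rfl | rfl) (rfl | h)
      · exact h34 rfl
      · exact (hinv h36).elim h.symm
      · exact h35 rfl
      · exact h34 (σ.injective h).symm)
    (fun r hr => hcomp l₁ r (fun h => hr (Or.inl h)) (fun h => hr (Or.inr h)))
    (fun r hr => hcomp l₂ r (fun h => hr (Or.inl h)) (fun h => hr (Or.inr h)))
    (fun r hr => hcomp l₃ r (fun h => hr (Or.inl h)) (fun h => hr (Or.inr h)))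
  rcases hres with h1 | ⟨s, h1⟩
  · apply hQw'
    have : Q a' = Q w' := by rw [ha', Q_act]
    rw [← this, S.dec.Q_sum a']
    exact Finset.sum_eq_zero (fun r _ => by
      have h9 : π r a' = 0 := h1 r
      rw [h9, QuadraticMap.map_zero])
  · have h3 : a + s • a' = 0 := by
      apply S.dec.ext
      intro r
      rw [map_add, map_smul, map_zero]
      exact h1 r
    have h4 : w + s • w' = 0 := by
      have := congrArg (act m) h3
      rw [act_add, act_smul, ha, ha', act_act_inv, act_act_inv] at this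
      rw [this]
      exact act_zero m
    have h5 := congrArg (π i) h4
    rw [map_add, map_smul, S.dec.idem i _ hw, S.dec.zero i j _ hij hw', smul_zero, add_zero, map_zero] at h5
    exact hw0 h5

variable (ht : 7 ≤ t) (hq : 7 ≤ Fintype.card F) (hyp : ∀ i, ∃ e f, e ∈ D i ∧ f ∈ D i ∧ HB Q e f)
include ht hq hyp

/-- No zero component of images of nonsingular member vectors. -/
theorem no_zero {m : 𝕀} (hm : (m : GL ι F) ∈ M) (hmS : (m : GL ι F) ∉ decompositionStabilizer D) {i l₀ : Fin t} {x : ι → F}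
    (hx : x ∈ D i) (h0 : Q x ≠ 0) (hz : π l₀ (act m x) = 0) : False := by
  refine S.rot rfl (fun j => ?_) hm hmS hx h0 hz
  obtain ⟨e, f, he, hf, hb⟩ := hyp j
  exact hyp_rot hq he hf hb

/-- At most two nonsingular components of images of nonsingular member vectors. -/
theorem no_three {m : 𝕀} (hm : (m : GL ι F) ∈ M) (hmS : (m : GL ι F) ∉ decompositionStabilizer D) {i₀ : Fin t} {x : ι → F}
    (hx : x ∈ D i₀) (h0 : Q x ≠ 0) {i₁ i₂ i₃ : Fin t} (h12 : i₁ ≠ i₂) (h13 : i₁ ≠ i₃) (h23 : i₂ ≠ i₃)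
    (h₁ : Q (π i₁ (act m x)) ≠ 0) (h₂ : Q (π i₂ (act m x)) ≠ 0) (h₃ : Q (π i₃ (act m x)) ≠ 0) : False := by
  set y := act m x with hy
  have hex : ∀ i, Q (π i y) ≠ 0 → ∃ w ∈ D i, Q w ≠ 0 ∧ 𝔣 w y = 0 := by
    intro i hi
    obtain ⟨e, f, he, hf, hb⟩ := hyp i
    have hn := comp_norm S.dec hb he hf y
    refine ⟨(𝔣 f y) • e + (-𝔣 e y) • f, (D i).add_mem ((D i).smul_mem _ he) ((D i).smul_mem _ hf), ?_, ?_⟩
    · rw [hb.Q_comb]
      intro h
      apply hi
      rw [hn]
      linear_combination -h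
    · rw [polar_add_left, polar_smul_left', polar_smul_left']
      ring
  obtain ⟨w₁, hw₁, hQ₁, hf₁⟩ := hex i₁ h₁
  obtain ⟨w₂, hw₂, hQ₂, hf₂⟩ := hex i₂ h₂
  obtain ⟨w₃, hw₃, hQ₃, hf₃⟩ := hex i₃ h₃
  have hm' : ((m⁻¹ : 𝕀) : GL ι F) ∈ M := M.inv_mem hm
  have hmS' : ((m⁻¹ : 𝕀) : GL ι F) ∉ decompositionStabilizer D := fun h =>
    hmS (by
      have := (decompositionStabilizer D).inv_mem h
      simpa using this)
  have key : ∀ {i j : Fin t} {w w' : ι → F}, i ≠ j → w ∈ D i → w' ∈ D j → Q w ≠ 0 → Q w' ≠ 0 → 𝔣 w y = 0 → 𝔣 w' y = 0 →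
      (IsSquare (Q w) ↔ IsSquare (Q w')) → False := by
    intro i j w w' hij hw hw' hQw hQw' hf hf' hiff
    obtain ⟨l₀, hl₀⟩ := tau_core S ht hm hx h0 hij hw hw' hQw hQw' (same_class hQw hQw' hiff) hf hf'
    exact no_zero S ht hq hyp hm' hmS' hw hQw hl₀
  by_cases c12 : IsSquare (Q w₁) ↔ IsSquare (Q w₂)
  · exact key h12 hw₁ hw₂ hQ₁ hQ₂ hf₁ hf₂ c12
  by_cases c13 : IsSquare (Q w₁) ↔ IsSquare (Q w₃)
  · exact key h13 hw₁ hw₃ hQ₁ hQ₃ hf₁ hf₃ c13
  · exact key h23 hw₂ hw₃ hQ₂ hQ₃ hf₂ hf₃ (by tauto)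

/-- A vector of a hyperbolic pair has at most one zero component in its image. -/
theorem conj_zero {m : 𝕀} (hm : (m : GL ι F) ∈ M) (hmS : (m : GL ι F) ∉ decompositionStabilizer D) {l : Fin t} {e f : ι → F}
    (hb : HB Q e f) (he : e ∈ D l) (hf : f ∈ D l) {i j : Fin t} (hij : i ≠ j) (hi : π i (act m f) = 0) (hj : π j (act m f) = 0) :
    False := by
  obtain ⟨ν, hν, hν4⟩ := exists_nu (F := F) hq
  set n := ν * ν with hn
  have hn0 : n ≠ 0 := mul_ne_zero hν hν
  have hn1 : n ≠ 1 := by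
    intro h
    apply hν4
    rw [h, one_mul]
  set ρ : 𝕀 := tr hb n hn0 with hρ
  have hρM : (ρ : GL ι F) ∈ M := S.mem_M (tr_omega_sq S.hQ S.hn hb hν hn0) (tr_stab S.dec hb he hf _ _)
  set ς : 𝕀 := m * ρ * m⁻¹ with hς
  have hςM : (ς : GL ι F) ∈ M := M.mul_mem (M.mul_mem hm hρM) (M.inv_mem hm)
  set a := act m e with ha
  set b := act m f with hbd
  have hinv : ∀ u z, 𝔣 u (act m⁻¹ z) = 𝔣 (act m u) z := by
    intro u z
    rw [← polar_act m u (act m⁻¹ z), act_act_inv]
  have hςact : ∀ z, act ς z = z + ((n - 1) * 𝔣 b z) • a + ((n⁻¹ - 1) * 𝔣 a z) • b := by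
    intro z
    rw [hς, act_mul, act_mul, hρ, tr_act, act_add, act_add, act_smul, act_smul, act_act_inv, hinv, hinv]
  have hb0 : b ≠ 0 := by
    intro h
    apply hb.v_ne
    have := congrArg (act m⁻¹) h
    rwa [hbd, act_inv_act, act_zero] at this
  have hnine : n⁻¹ - 1 ≠ 0 := by
    intro h
    apply hn1
    have h3 : n⁻¹ = 1 := sub_eq_zero.1 h
    calc n = (n⁻¹)⁻¹ := (inv_inv n).symm
      _ = 1 := by rw [h3, inv_one]
  -- on nonsingular vectors of the member `j`
  have hfix : ∀ x ∈ D j, Q x ≠ 0 → 𝔣 a x = 0 := by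
    intro x hx hx0
    have hbx : 𝔣 b x = 0 := by
      rw [S.dec.polar_comp' hx b, hj, polar_zero_left]
    have hςx : act ς x = x + ((n⁻¹ - 1) * 𝔣 a x) • b := by
      rw [hςact, hbx, mul_zero, zero_smul, add_zero]
    have h1 : π i (act ς x) = 0 := by
      rw [hςx, map_add, map_smul, hi, smul_zero, add_zero]
      exact S.dec.zero i j x hij hx
    have h2 : π j (act ς x) = x := by
      rw [hςx, map_add, map_smul, hj, smul_zero, add_zero]
      exact S.dec.idem j x hx
    have hςS : (ς : GL ι F) ∈ decompositionStabilizer D := by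
      by_contra hcon
      exact no_zero S ht hq hyp hςM hcon hx hx0 h1
    obtain ⟨σ, hσ⟩ := stab_maps hςS
    have h3 : act ς x ∈ D (σ j) := hσ j x hx
    have hx00 : x ≠ 0 := by
      rintro rfl
      exact hx0 (QuadraticMap.map_zero _)
    have hσj : σ j = j := by
      by_contra hne
      have := S.dec.zero j (σ j) _ (Ne.symm hne) h3
      rw [h2] at this
      exact hx00 this
    rw [hσj] at h3
    have h4 : act ς x = x := by
      have := S.dec.idem j _ h3
      rw [h2] at this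
      exact this.symm
    rw [hςx] at h4
    have h5 : ((n⁻¹ - 1) * 𝔣 a x) • b = 0 := by
      have := congrArg (fun z => z - x) h4
      simpa using this
    have h6 := (smul_eq_zero.1 h5).resolve_right hb0
    exact (mul_eq_zero.1 h6).resolve_left hnine
  -- the component of `a` at `j` vanishes
  obtain ⟨e', f', he', hf', hb'⟩ := hyp j
  have hQ1 : Q (e' + f') ≠ 0 := hb'.ne1
  have hQn : Q (e' + n • f') ≠ 0 := hb'.nes hn0
  have h1 := hfix _ ((D j).add_mem he' hf') hQ1
  have h3 := hfix _ ((D j).add_mem he' ((D j).smul_mem _ hf')) hQn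
  rw [polar_add_right] at h1
  rw [polar_add_right, polar_smul_right'] at h3
  have h4 : (n - 1) * 𝔣 a f' = 0 := by linear_combination h3 - h1
  have h5 : 𝔣 a f' = 0 := (mul_eq_zero.1 h4).resolve_left (sub_ne_zero.2 hn1)
  have h6 : 𝔣 a e' = 0 := by
    rw [h5, add_zero] at h1
    exact h1
  have hzero : π j a = 0 := by
    refine eq_zero_of_perp S.dec hb' he' hf' (S.dec.mem j a) ?_ ?_
    · rw [← S.dec.polar_comp he', polar_comm]
      exact h6
    · rw [← S.dec.polar_comp hf', polar_comm]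
      exact h5
  have hef : Q (e + f) ≠ 0 := hb.ne1
  refine no_zero S ht hq hyp hm hmS ((D l).add_mem he hf) hef (l₀ := j) ?_
  rw [act_add, map_add, ← ha, ← hbd, hzero, hj, add_zero]

/-- The last step. -/
theorem final_hyp (m : 𝕀) (hm : (m : GL ι F) ∈ M) : (m : GL ι F) ∈ decompositionStabilizer D := by
  classical
  by_contra hmS
  let l : Fin t := ⟨0, by omega⟩
  obtain ⟨e, f, he, hf, hb⟩ := hyp l
  set a := act m e with ha
  set b := act m f with hbd
  set Za := (Finset.univ : Finset (Fin t)).filter (fun i => π i a = 0) with hZa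
  set Zb := (Finset.univ : Finset (Fin t)).filter (fun i => π i b = 0) with hZb
  have hZac : Za.card ≤ 1 := by
    refine Finset.card_le_one.2 (fun i hi j hj => ?_)
    by_contra hij
    exact conj_zero S ht hq hyp hm hmS hb.symm hf he hij (Finset.mem_filter.1 hi).2 (Finset.mem_filter.1 hj).2
  have hZbc : Zb.card ≤ 1 := by
    refine Finset.card_le_one.2 (fun i hi j hj => ?_)
    by_contra hij
    exact conj_zero S ht hq hyp hm hmS hb he hf hij (Finset.mem_filter.1 hi).2 (Finset.mem_filter.1 hj).2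
  have hGc : 5 ≤ ((Za ∪ Zb)ᶜ).card := by
    rw [Finset.card_compl, Fintype.card_fin]
    have := Finset.card_union_le Za Zb
    omega
  obtain ⟨G, hGs, hGcard⟩ := Finset.exists_subset_card_eq hGc
  have hG : ∀ i ∈ G, π i a ≠ 0 ∧ π i b ≠ 0 := by
    intro i hi
    have h1 := Finset.mem_compl.1 (hGs hi)
    simp only [Finset.mem_union, hZa, hZb, Finset.mem_filter, Finset.mem_univ, true_and, not_or] at h1
    exact h1
  -- the polynomials
  let P : Fin t → F → F := fun i r => Q (π i (a + r • b))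
  have hP : ∀ i r, P i r = Q (π i a) + r * r * Q (π i b) + r * 𝔣 (π i a) (π i b) := by
    intro i r
    simp only [P]
    rw [map_add, map_smul, Q_add, Q_smul, polar_smul_right']
  have hindep : ∀ i ∈ G, ¬ (Q (π i a) = 0 ∧ Q (π i b) = 0 ∧ 𝔣 (π i a) (π i b) = 0) := by
    rintro i hi ⟨h1, h3, h4⟩
    obtain ⟨ha0, hb0⟩ := hG i hi
    have hind : ∀ s : F, π i b ≠ s • π i a := by
      intro s hs
      have hs0 : s ≠ 0 := by
        rintro rfl
        rw [zero_smul] at hs
        exact hb0 hs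
      have hz : π i (act m (f + (-s) • e)) = 0 := by
        rw [act_add, act_smul, map_add, map_smul, ← ha, ← hbd, hs]
        simp
      have hQ : Q (f + (-s) • e) ≠ 0 := by
        have := hb.symm.Q_comb 1 (-s)
        rw [one_smul, one_mul] at this
        rw [this]
        exact neg_ne_zero.2 hs0
      exact no_zero S ht hq hyp hm hmS ((D l).add_mem hf ((D l).smul_mem _ he)) hQ hz
    obtain ⟨e', f', he', hf', hb'⟩ := hyp i
    obtain ⟨u, v, huv⟩ := coord (S.dec.dim i) (S.dec.mem i a) (S.dec.mem i b) ha0 hind (e' + f') ((D i).add_mem he' hf')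
    apply hb'.ne1
    rw [huv, Q_add, Q_smul, Q_smul, polar_smul_left', polar_smul_right', h1, h3, h4]
    ring
  have hroots : ∀ i ∈ G, ∀ T : Finset F, (T.filter (fun r => P i r = 0)).card ≤ 2 := by
    intro i hi T
    by_contra hcon
    push Not at hcon
    obtain ⟨x, y, z, hx, hy, hz, hxy, hxz, hyz⟩ := Finset.two_lt_card_iff.1 hcon
    have px := (Finset.mem_filter.1 hx).2
    have py := (Finset.mem_filter.1 hy).2
    have pz := (Finset.mem_filter.1 hz).2
    rw [hP] at px py pz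
    set A := Q (π i a)
    set C := Q (π i b)
    set B := 𝔣 (π i a) (π i b)
    have e1 : (x - y) * ((x + y) * C + B) = 0 := by linear_combination px - py
    have e2 : (x - z) * ((x + z) * C + B) = 0 := by linear_combination px - pz
    have e3 := (mul_eq_zero.1 e1).resolve_left (sub_ne_zero.2 hxy)
    have e4 := (mul_eq_zero.1 e2).resolve_left (sub_ne_zero.2 hxz)
    have e5 : (y - z) * C = 0 := by linear_combination e3 - e4
    have hC : C = 0 := (mul_eq_zero.1 e5).resolve_left (sub_ne_zero.2 hyz)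
    have hB : B = 0 := by
      rw [hC, mul_zero, zero_add] at e3
      exact e3
    have hA : A = 0 := by
      rw [hC, hB, mul_zero, mul_zero, add_zero, add_zero] at px
      exact px
    exact hindep i hi ⟨hA, hC, hB⟩
  -- four values
  have hTc : 4 ≤ ((Finset.univ : Finset F).erase 0).card := by
    rw [Finset.card_erase_of_mem (Finset.mem_univ _), Finset.card_univ]
    omega
  obtain ⟨T, hTs, hTcard⟩ := Finset.exists_subset_card_eq hTc
  have hmany : ∀ r ∈ T, 3 ≤ (G.filter (fun i => P i r = 0)).card := by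
    intro r hr
    have hr0 : r ≠ 0 := (Finset.mem_erase.1 (hTs hr)).1
    have h1 := Finset.card_filter_add_card_filter_not (s := G) (fun i => P i r = 0)
    have h3 : (G.filter (fun i => ¬ P i r = 0)).card ≤ 2 := by
      by_contra hcon
      push Not at hcon
      obtain ⟨x, y, z, hx, hy, hz, hxy, hxz, hyz⟩ := Finset.two_lt_card_iff.1 hcon
      have px := (Finset.mem_filter.1 hx).2
      have py := (Finset.mem_filter.1 hy).2
      have pz := (Finset.mem_filter.1 hz).2
      have hact : a + r • b = act m (e + r • f) := by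
        rw [act_add, act_smul]
      simp only [P, hact] at px py pz
      have hQ : Q (e + r • f) ≠ 0 := hb.nes hr0
      exact no_three S ht hq hyp hm hmS ((D l).add_mem he ((D l).smul_mem _ hf)) hQ hxy hxz hyz px py pz
    omega
  have hdc := Finset.sum_card_bipartiteAbove_eq_sum_card_bipartiteBelow (s := G) (t := T) (fun i r => P i r = 0)
  have h5 : ∑ i ∈ G, (Finset.bipartiteAbove (fun i r => P i r = 0) T i).card ≤ G.card • 2 :=
    Finset.sum_le_card_nsmul _ _ _ (fun i hi => hroots i hi T)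
  have h6 : T.card • 3 ≤ ∑ r ∈ T, (Finset.bipartiteBelow (fun i r => P i r = 0) G r).card :=
    Finset.card_nsmul_le_sum _ _ _ (fun r hr => hmany r hr)
  rw [hGcard, smul_eq_mul] at h5
  rw [hTcard, smul_eq_mul] at h6
  omega

end FS

end Cfsg.Agent.Lib.Classical.Decomp.Hyp
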