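/-
Decompositions into hyperbolic planes: from a vector of the class in no member to a vector with a singular nonzero component.
-/
import Mathlib
import Cfsg.Agent.Lib.Classical.Decomp.Hyp.Diag

set_option autoImplicit false
set_option linter.unusedSectionVars false
set_option linter.unusedSimpArgs false
set_option linter.unusedVariables false

namespace Cfsg.Agent.Lib.Classical.Decomp.Hyp

open Matrix QuadraticMap Module Cfsg.Geo
open Cfsg.Agent.Lib.Classical.Decomp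
open Cfsg.Agent.Lib.Classical.Decomp.Ev
open Cfsg.Agent.Lib.Classical.Orth.Basic
open Cfsg.Agent.Lib.Classical.Orth.Spinor
open Cfsg.Agent.Lib.Classical.Orth.Dickson

variable {ι : Type} [Fintype ι] [DecidableEq ι] {F : Type*} [Field F] [Fintype F]
variable {Q : QuadraticForm F (ι → F)}

set_option quotPrecheck false in
local notation "𝔣" => polar (⇑Q)
set_option quotPrecheck false in
local notation "𝕀" => ↥(Cfsg.isometryGroup F (⇑Q))

variable {t : ℕ} {D : Fin t → Submodule F (ι → F)} {π : Fin t → (ι → F) →ₗ[F] (ι → F)}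
variable {R : Set (ι → F)} {c : F}

namespace HS

variable (S : HS Q D π R c)
include S

/-- The reflection step. -/
theorem sing_of_rot {a b : ι → F} (ha : a ∈ R) (hbR : b ∈ R) {i : Fin t} {e f : ι → F} (hb : HB Q e f) (he : e ∈ D i)
    (hf : f ∈ D i) {l : F} (hl : l ≠ 0) (hl2 : l * l ≠ 1) (hβ : 𝔣 e a ≠ 0)
    (hcomp : π i b = (l * 𝔣 f a) • e + (l⁻¹ * 𝔣 e a) • f) (hfab : 𝔣 a b = c * l) : ∀ x, Q x = c → x ∈ R := by
  have hQa0 : Q a ≠ 0 := S.toSys.ne_zero_of_mem ha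
  have hQa : Q a = c := S.norm a ha
  have h1 := S.refl a ha b hbR hQa0
  rw [reflectionIso_act, hfab, hQa, ← mul_assoc, inv_mul_cancel₀ S.hc, one_mul] at h1
  have h3 : π i (b - l • a) = ((l⁻¹ - l) * 𝔣 e a) • f := by
    rw [map_sub, map_smul, hcomp, comp_eq S.dec hb he hf a]
    ext j
    simp only [Pi.add_apply, Pi.sub_apply, Pi.smul_apply, smul_eq_mul]
    ring
  have hne : l⁻¹ - l ≠ 0 := by
    intro h
    apply hl2
    have h4 : l⁻¹ = l := sub_eq_zero.1 h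
    calc l * l = l * l⁻¹ := by rw [h4]
      _ = 1 := mul_inv_cancel₀ hl
  refine S.of_sing h1 (i := i) ?_ ?_
  · rw [h3, Q_smul, hb.Qv, mul_zero]
  · rw [h3]
    exact smul_ne_zero (mul_ne_zero hne hβ) hb.v_ne

/-- Three nonsingular components and a zero component, odd characteristic. -/
theorem three (h2 : (2 : F) ≠ 0) {a : ι → F} (ha : a ∈ R) {i₁ i₂ i₃ j₀ : Fin t} (h12 : i₁ ≠ i₂) (h13 : i₁ ≠ i₃) (h23 : i₂ ≠ i₃)
    (hA₁ : Q (π i₁ a) ≠ 0) (hA₂ : Q (π i₂ a) ≠ 0) (hA₃ : Q (π i₃ a) ≠ 0) (hj₀ : π j₀ a = 0) : ∀ x, Q x = c → x ∈ R := by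
  classical
  choose e f he hf hb using S.hyp
  obtain ⟨ν, hν, hν4⟩ := exists_nu (F := F) S.hq
  set l := ν * ν with hl
  have hl0 : l ≠ 0 := mul_ne_zero hν hν
  have hQa : Q a = c := S.norm a ha
  set A₁ := Q (π i₁ a) with hA₁d
  set A₂ := Q (π i₂ a) with hA₂d
  set A₃ := Q (π i₃ a) with hA₃d
  obtain ⟨s₂, s₃, hs₂, hs₃, hsum⟩ := mu_sum h2 hA₂ hA₃ (c * l - 2 * c - A₁ * (l + l⁻¹ - 2) + 2 * A₂ + 2 * A₃)
  let s : Fin t → F := fun m => if m = i₁ then l else if m = i₂ then s₂ else if m = i₃ then s₃ else 1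
  have hs1 : s i₁ = l := by simp [s]
  have hs2 : s i₂ = s₂ := by simp [s, h12.symm]
  have hs3 : s i₃ = s₃ := by simp [s, h13.symm, h23.symm]
  have hs : ∀ m, s m ≠ 0 := by
    intro m
    simp only [s]
    split_ifs
    · exact hl0
    · exact hs₂
    · exact hs₃
    · exact one_ne_zero
  set J : Finset (Fin t) := {i₁, i₂, i₃} with hJ
  obtain ⟨g, hg, hgp, -⟩ := exists_diag S.dec he hf hb s hs J
  have hj₀J : j₀ ∉ J := by
    intro h
    simp only [hJ, Finset.mem_insert, Finset.mem_singleton] at h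
    rcases h with h | h | h
    · apply hA₁
      rw [hA₁d, ← h, hj₀, QuadraticMap.map_zero]
    · apply hA₂
      rw [hA₂d, ← h, hj₀, QuadraticMap.map_zero]
    · apply hA₃
      rw [hA₃d, ← h, hj₀, QuadraticMap.map_zero]
  have hgz : π j₀ (act g a) = 0 := by
    rw [hgp, if_neg hj₀J, hj₀]
  have hbR : act g a ∈ R := S.toSys.move g hg ha (corr_of_zero S.dec S.hQ h2 le_rfl hgz)
  have hi₁J : i₁ ∈ J := by simp [hJ]
  have hβ : 𝔣 (e i₁) a ≠ 0 := by
    intro h
    apply hA₁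
    rw [hA₁d, comp_norm S.dec (hb i₁) (he i₁) (hf i₁) a, h, mul_zero]
  refine S.sing_of_rot ha hbR (hb i₁) (he i₁) (hf i₁) hl0 hν4 hβ ?_ ?_
  · rw [hgp, if_pos hi₁J, hs1]
  · rw [diag_polar S.dec he hf hb s hs J hgp, hJ, Finset.sum_insert (by simp [h12, h13]), Finset.sum_insert (by simp [h23]),
      Finset.sum_singleton, hs1, hs2, hs3, hQa, ← hA₁d, ← hA₂d, ← hA₃d]
    linear_combination hsum

/-- Five components, odd characteristic. -/
theorem five (h2 : (2 : F) ≠ 0) {a : ι → F} (ha : a ∈ R) {i₁ i₂ i₃ i₄ i₅ : Fin t} (h12 : i₁ ≠ i₂) (h13 : i₁ ≠ i₃) (h14 : i₁ ≠ i₄)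
    (h15 : i₁ ≠ i₅) (h23 : i₂ ≠ i₃) (h24 : i₂ ≠ i₄) (h25 : i₂ ≠ i₅) (h34 : i₃ ≠ i₄) (h35 : i₃ ≠ i₅) (h45 : i₄ ≠ i₅)
    (hA₁ : Q (π i₁ a) ≠ 0) (hB : Q (π i₂ a) + Q (π i₃ a) ≠ 0) (hC : Q (π i₄ a) + Q (π i₅ a) ≠ 0) : ∀ x, Q x = c → x ∈ R := by
  classical
  choose e f he hf hb using S.hyp
  obtain ⟨ν, hν, hν4⟩ := exists_nu (F := F) S.hq
  set l := ν * ν with hl
  have hl0 : l ≠ 0 := mul_ne_zero hν hν
  have hQa : Q a = c := S.norm a ha
  set A₁ := Q (π i₁ a) with hA₁d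
  set A₂ := Q (π i₂ a) with hA₂d
  set A₃ := Q (π i₃ a) with hA₃d
  set A₄ := Q (π i₄ a) with hA₄d
  set A₅ := Q (π i₅ a) with hA₅d
  obtain ⟨s₂, s₃, hs₂, hs₃, hsum⟩ := mu_sum h2 hB hC (c * l - 2 * c - A₁ * (l + l⁻¹ - 2) + 2 * (A₂ + A₃) + 2 * (A₄ + A₅))
  let s : Fin t → F := fun m => if m = i₁ then l else if m = i₂ then s₂ else if m = i₃ then s₂ else if m = i₄ then s₃ else if m = i₅ then s₃ else 1
  have hs1 : s i₁ = l := by simp [s]
  have hs2 : s i₂ = s₂ := by simp [s, h12.symm]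
  have hs3 : s i₃ = s₂ := by simp [s, h13.symm, h23.symm]
  have hs4 : s i₄ = s₃ := by simp [s, h14.symm, h24.symm, h34.symm]
  have hs5 : s i₅ = s₃ := by simp [s, h15.symm, h25.symm, h35.symm, h45.symm]
  have hs : ∀ m, s m ≠ 0 := by
    intro m
    simp only [s]
    split_ifs
    · exact hl0
    · exact hs₂
    · exact hs₂
    · exact hs₃
    · exact hs₃
    · exact one_ne_zero
  set J : Finset (Fin t) := {i₁, i₂, i₃, i₄, i₅} with hJ
  obtain ⟨g, hg, hgp, hgs⟩ := exists_diag S.dec he hf hb s hs J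
  have hprod : ∏ m ∈ J, eps (s m) = 1 := by
    rw [hJ, Finset.prod_insert (by simp [h12, h13, h14, h15]), Finset.prod_insert (by simp [h23, h24, h25]),
      Finset.prod_insert (by simp [h34, h35]), Finset.prod_insert (by simp [h45]), Finset.prod_singleton, hs1, hs2, hs3, hs4, hs5,
      eps_of_sq (⟨ν, hl⟩ : IsSquare l), one_mul, ← mul_assoc, units_sq, one_mul, units_sq]
  have hΩ : g ∈ Cfsg.Omega F (⇑Q) := by
    rw [mem_omega_iff Q S.hQ h2]
    obtain ⟨h1, h3⟩ := hgs h2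
    exact ⟨h1.trans hprod, h3.trans hprod⟩
  have hbR : act g a ∈ R := S.hinv g hΩ hg a ha
  have hi₁J : i₁ ∈ J := by simp [hJ]
  have hβ : 𝔣 (e i₁) a ≠ 0 := by
    intro h
    apply hA₁
    rw [hA₁d, comp_norm S.dec (hb i₁) (he i₁) (hf i₁) a, h, mul_zero]
  refine S.sing_of_rot ha hbR (hb i₁) (he i₁) (hf i₁) hl0 hν4 hβ ?_ ?_
  · rw [hgp, if_pos hi₁J, hs1]
  · rw [diag_polar S.dec he hf hb s hs J hgp, hJ, Finset.sum_insert (by simp [h12, h13, h14, h15]),
      Finset.sum_insert (by simp [h23, h24, h25]), Finset.sum_insert (by simp [h34, h35]), Finset.sum_insert (by simp [h45]),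
      Finset.sum_singleton, hs1, hs2, hs3, hs4, hs5, hQa, ← hA₁d, ← hA₂d, ← hA₃d, ← hA₄d, ← hA₅d]
    linear_combination hsum

/-- A block permutation. -/
theorem perm_iso' (σ : Equiv.Perm (Fin t)) : ∃ h : 𝕀, (h : GL ι F) ∈ decompositionStabilizer D ∧
    ∀ l x, π (σ l) (act h x) = act h (π l x) := by
  obtain ⟨h, h1, -⟩ := exists_perm_iso S.dec S.hQ S.iso σ
  refine ⟨h, mem_stab_of_perm S.dec _ σ h1, fun l x => ?_⟩
  conv_lhs => rw [← S.dec.sum x]
  change π (σ l) (Matrix.toLin' ((h : GL ι F) : Matrix ι ι F) (∑ m, π m x)) = _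
  rw [map_sum, map_sum, Finset.sum_eq_single l]
  · exact S.dec.idem _ _ (h1 l _ (S.dec.mem l x))
  · intro j _ hj
    exact S.dec.zero _ _ _ (fun h => hj (σ.injective h).symm) (h1 j _ (S.dec.mem j x))
  · simp

/-- Exactly two nonzero components, odd characteristic. -/
theorem grow (h2 : (2 : F) ≠ 0) {a : ι → F} (ha : a ∈ R) {i₁ i₂ : Fin t} (h12 : i₁ ≠ i₂) (hA₁ : Q (π i₁ a) ≠ 0)
    (hA₂ : Q (π i₂ a) ≠ 0) (hz : ∀ l, l ≠ i₁ → l ≠ i₂ → π l a = 0) : ∀ x, Q x = c → x ∈ R := by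
  classical
  have ht := S.ht
  obtain ⟨j₃, hj₃⟩ := exists_notMem_fin {i₁, i₂} (lt_of_le_of_lt Finset.card_le_two (by omega))
  obtain ⟨j₄, hj₄⟩ := exists_notMem_fin {i₁, i₂, j₃} (lt_of_le_of_lt Finset.card_le_three (by omega))
  simp only [Finset.mem_insert, Finset.mem_singleton, not_or] at hj₃ hj₄
  obtain ⟨h31, h32⟩ := hj₃
  obtain ⟨h41, h42, h43⟩ := hj₄
  obtain ⟨e, f, he, hf, hb⟩ := S.hyp i₁
  obtain ⟨l, hl, hl4⟩ := exists_nu (F := F) S.hq
  have hl2 : l * l ≠ 1 := by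
    intro h
    apply hl4
    rw [h, one_mul]
  have hl2' : l * l + 1 ≠ 0 := by
    intro h
    apply hl4
    have : l * l = -1 := by linear_combination h
    rw [this]
    ring
  set σ := Equiv.swap i₂ j₃ with hσ
  have hσ₁ : σ i₁ = i₁ := Equiv.swap_apply_of_ne_of_ne h12 (Ne.symm h31)
  have hσ₂ : σ i₂ = j₃ := Equiv.swap_apply_left _ _
  have hσ₃ : σ j₃ = i₂ := Equiv.swap_apply_right _ _
  have hσ₄ : σ j₄ = j₄ := Equiv.swap_apply_of_ne_of_ne h42 h43
  obtain ⟨h₀, hst₀, hπ₀⟩ := S.perm_iso' σ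
  set α := 𝔣 f a with hα
  set β := 𝔣 e a with hβ
  have hAB : Q (π i₁ a) = α * β := comp_norm S.dec hb he hf a
  have hα0 : α ≠ 0 := by
    intro h
    apply hA₁
    rw [hAB, h, zero_mul]
  have hβ0 : β ≠ 0 := by
    intro h
    apply hA₁
    rw [hAB, h, mul_zero]
  set b₀ := act h₀ a with hb₀
  have hb₀1 : π i₁ b₀ = act h₀ (π i₁ a) := by
    have := hπ₀ i₁ a
    rwa [hσ₁] at this
  have hb₀Q : Q (π i₁ b₀) = α * β := by
    rw [hb₀1, Q_act, hAB]
  set α' := 𝔣 f b₀ with hα'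
  set β' := 𝔣 e b₀ with hβ'
  have hAB' : α' * β' = α * β := by
    rw [← hb₀Q]
    exact (comp_norm S.dec hb he hf b₀).symm
  have hα'0 : α' ≠ 0 := by
    intro h
    rw [h, zero_mul] at hAB'
    exact mul_ne_zero hα0 hβ0 hAB'.symm
  set s₀ := l * α / α' with hs₀
  have hs₀0 : s₀ ≠ 0 := div_ne_zero (mul_ne_zero hl hα0) hα'0
  set g : 𝕀 := tr hb s₀ hs₀0 * h₀ with hg
  have hgS : (g : GL ι F) ∈ decompositionStabilizer D :=
    (decompositionStabilizer D).mul_mem (tr_stab S.dec hb he hf _ _) hst₀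
  set a₂ := act g a with ha₂
  have hga : a₂ = b₀ + ((s₀ - 1) * α') • e + ((s₀⁻¹ - 1) * β') • f := by
    rw [ha₂, hg, act_mul, tr_act]
  have hπ_other : ∀ m, m ≠ i₁ → π m a₂ = π m b₀ := by
    intro m hm
    rw [hga, map_add, map_add, map_smul, map_smul, S.dec.zero m i₁ _ hm he, S.dec.zero m i₁ _ hm hf]
    simp
  have hπ₁ : π i₁ a₂ = (l * α) • e + (l⁻¹ * β) • f := by
    rw [hga, map_add, map_add, map_smul, map_smul, S.dec.idem _ _ he, S.dec.idem _ _ hf, comp_eq S.dec hb he hf b₀, ← hα', ← hβ']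
    have e1 : s₀ * α' = l * α := by
      rw [hs₀]
      field_simp
    have e2 : s₀⁻¹ * β' = l⁻¹ * β := by
      rw [hs₀, inv_div]
      field_simp
      linear_combination hAB'
    have e3 : α' • e + β' • f + ((s₀ - 1) * α') • e + ((s₀⁻¹ - 1) * β') • f = (s₀ * α') • e + (s₀⁻¹ * β') • f := by
      ext j
      simp only [Pi.add_apply, Pi.smul_apply, smul_eq_mul]
      ring
    rw [e3, e1, e2]
  have hπ₄ : π j₄ a₂ = 0 := by
    rw [hπ_other j₄ h41]
    have := hπ₀ j₄ a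
    rw [hσ₄, hz j₄ h41 h42, act_zero] at this
    exact this
  have hπ₂ : π i₂ a₂ = 0 := by
    rw [hπ_other i₂ (Ne.symm h12)]
    have := hπ₀ j₃ a
    rw [hσ₃, hz j₃ h31 h32, act_zero] at this
    exact this
  have hπ₃ : π j₃ a₂ = act h₀ (π i₂ a) := by
    rw [hπ_other j₃ h31]
    have := hπ₀ i₂ a
    rwa [hσ₂] at this
  have ha₂R : a₂ ∈ R := S.toSys.move g hgS ha (corr_of_zero S.dec S.hQ h2 le_rfl hπ₄)
  have hQa0 : Q a ≠ 0 := S.toSys.ne_zero_of_mem ha
  have hQa : Q a = c := S.norm a ha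
  have hf1 : 𝔣 a a₂ = (α * β) * (l + l⁻¹) := by
    rw [S.dec.polar_sum, Finset.sum_eq_single i₁]
    · rw [hπ₁, polar_add_right, polar_smul_right', polar_smul_right', ← S.dec.polar_comp' he, ← S.dec.polar_comp' hf,
        polar_comm (⇑Q) a e, polar_comm (⇑Q) a f, ← hα, ← hβ]
      ring
    · intro m _ hm
      by_cases hm2 : m = i₂
      · rw [hm2, hπ₂, polar_zero_right]
      · rw [hz m hm hm2, polar_zero_left]
    · simp
  have hμ0 : l + l⁻¹ ≠ 0 := by
    intro h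
    apply hl2'
    have : l * (l + l⁻¹) = 0 := by rw [h, mul_zero]
    rw [mul_add, mul_inv_cancel₀ hl] at this
    exact this
  set κ := c⁻¹ * ((α * β) * (l + l⁻¹)) with hκ
  have hκ0 : κ ≠ 0 := mul_ne_zero (inv_ne_zero S.hc) (mul_ne_zero (mul_ne_zero hα0 hβ0) hμ0)
  have hy := S.refl a ha a₂ ha₂R hQa0
  rw [reflectionIso_act, hf1, hQa, ← hκ] at hy
  set y := a₂ - κ • a with hyd
  have hy1 : π i₁ y = ((l - κ) * α) • e + ((l⁻¹ - κ) * β) • f := by
    rw [hyd, map_sub, map_smul, hπ₁, comp_eq S.dec hb he hf a, ← hα, ← hβ]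
    ext j
    simp only [Pi.add_apply, Pi.sub_apply, Pi.smul_apply, smul_eq_mul]
    ring
  have hy2 : Q (π i₂ y) ≠ 0 := by
    rw [hyd, map_sub, map_smul, hπ₂, zero_sub, QuadraticMap.map_neg, Q_smul]
    exact mul_ne_zero (mul_ne_zero hκ0 hκ0) hA₂
  have hy3 : Q (π j₃ y) ≠ 0 := by
    rw [hyd, map_sub, map_smul, hπ₃, hz j₃ h31 h32, smul_zero, sub_zero, Q_act]
    exact hA₂
  have hy4 : π j₄ y = 0 := by
    rw [hyd, map_sub, map_smul, hπ₄, hz j₄ h41 h42, smul_zero, sub_zero]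
  by_cases hy1Q : Q (π i₁ y) = 0
  · refine S.of_sing hy hy1Q ?_
    rw [hy1]
    intro h
    have h5 : 𝔣 f (((l - κ) * α) • e + ((l⁻¹ - κ) * β) • f) = (l - κ) * α := hb.f_comb_right' _ _
    have h6 : 𝔣 e (((l - κ) * α) • e + ((l⁻¹ - κ) * β) • f) = (l⁻¹ - κ) * β := hb.f_comb_right _ _
    rw [h, polar_zero_right] at h5 h6
    have h7 : l = κ := sub_eq_zero.1 ((mul_eq_zero.1 h5.symm).resolve_right hα0)
    have h8 : l⁻¹ = κ := sub_eq_zero.1 ((mul_eq_zero.1 h6.symm).resolve_right hβ0)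
    apply hl2
    calc l * l = l * l⁻¹ := by rw [h8, h7]
      _ = 1 := mul_inv_cancel₀ hl
  · exact S.three h2 hy h12 (Ne.symm h31) (Ne.symm h32) hy1Q hy2 hy3 hy4

/-- The closure in odd characteristic. -/
theorem closure_odd (h2 : (2 : F) ≠ 0) {a : ι → F} (ha : a ∈ R) (hno : ∀ i, a ∉ D i) : ∀ x, Q x = c → x ∈ R := by
  classical
  have ht := S.ht
  have ha0 : a ≠ 0 := by
    rintro rfl
    exact S.toSys.ne_zero_of_mem ha (QuadraticMap.map_zero _)
  by_cases hsing : ∃ i, Q (π i a) = 0 ∧ π i a ≠ 0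
  · obtain ⟨i, h1, h3⟩ := hsing
    exact S.of_sing ha h1 h3
  push Not at hsing
  have hN : ∀ l ∈ supp π a, Q (π l a) ≠ 0 := by
    intro l hl h
    exact (mem_supp.1 hl) (hsing l h)
  obtain ⟨i, j, hij, hi, hj⟩ := S.dec.exists_two_comps ha0 hno
  by_cases h6 : 6 ≤ (supp π a).card
  · -- five components
    have hpair : ∀ T : Finset (Fin t), T ⊆ supp π a → 3 ≤ T.card →
        ∃ p ∈ T, ∃ q ∈ T, p ≠ q ∧ Q (π p a) + Q (π q a) ≠ 0 := by
      intro T hT h3
      obtain ⟨x, y, z, hx, hy, hz, hxy, hxz, hyz⟩ := Finset.two_lt_card_iff.1 (by omega : 2 < T.card)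
      by_cases h1 : Q (π x a) + Q (π y a) = 0
      · by_cases h4 : Q (π x a) + Q (π z a) = 0
        · refine ⟨y, hy, z, hz, hyz, fun h5 => ?_⟩
          have h7 : 2 * Q (π y a) = 0 := by linear_combination h1 - h4 + h5
          exact (mul_ne_zero h2 (hN y (hT hy))) h7
        · exact ⟨x, hx, z, hz, hxz, h4⟩
      · exact ⟨x, hx, y, hy, hxy, h1⟩
    obtain ⟨i₁, hi₁⟩ : (supp π a).Nonempty := Finset.card_pos.1 (by omega)
    set T₁ := (supp π a).erase i₁ with hT₁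
    have hT₁c : T₁.card + 1 = (supp π a).card := by
      rw [hT₁, Finset.card_erase_of_mem hi₁]
      omega
    obtain ⟨i₂, h₂, i₃, h₃, h23, hB⟩ := hpair T₁ (Finset.erase_subset _ _) (by omega)
    set T₂ := (T₁.erase i₂).erase i₃ with hT₂
    have hT₂c : T₂.card + 2 = T₁.card := by
      rw [hT₂, Finset.card_erase_of_mem (Finset.mem_erase.2 ⟨Ne.symm h23, h₃⟩), Finset.card_erase_of_mem h₂]
      have : 1 ≤ T₁.card - 1 := by omega
      omega
    obtain ⟨i₄, h₄, i₅, h₅, h45, hC⟩ := hpair T₂ (fun x hx => Finset.erase_subset _ _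
      (Finset.erase_subset _ _ (Finset.erase_subset _ _ hx)) |> fun h => by
        simpa [hT₂, hT₁] using (Finset.mem_of_mem_erase (Finset.mem_of_mem_erase (Finset.mem_of_mem_erase hx))))
      (by omega)
    have m4 := Finset.mem_erase.1 h₄
    have m4' := Finset.mem_erase.1 m4.2
    have m4'' := Finset.mem_erase.1 m4'.2
    have m5 := Finset.mem_erase.1 h₅
    have m5' := Finset.mem_erase.1 m5.2
    have m5'' := Finset.mem_erase.1 m5'.2
    have m2 := Finset.mem_erase.1 h₂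
    have m3 := Finset.mem_erase.1 h₃
    exact S.five h2 ha (Ne.symm m2.1) (Ne.symm m3.1) (Ne.symm m4''.1) (Ne.symm m5''.1) h23 (Ne.symm m4'.1) (Ne.symm m5'.1)
      (Ne.symm m4.1) (Ne.symm m5.1) h45 (hN _ hi₁) hB hC
  · obtain ⟨j₀, hj₀⟩ := exists_notMem_fin (supp π a) (by omega)
    have hj₀z : π j₀ a = 0 := by
      by_contra h
      exact hj₀ (mem_supp.2 h)
    by_cases h3 : 2 < (supp π a).card
    · obtain ⟨x, y, z, hx, hy, hz, hxy, hxz, hyz⟩ := Finset.two_lt_card_iff.1 h3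
      exact S.three h2 ha hxy hxz hyz (hN x hx) (hN y hy) (hN z hz) hj₀z
    · refine S.grow h2 ha hij (hN i (mem_supp.2 hi)) (hN j (mem_supp.2 hj)) (fun l h1 h4 => ?_)
      by_contra hl
      have : 2 < (supp π a).card := Finset.two_lt_card_iff.2 ⟨i, j, l, mem_supp.2 hi, mem_supp.2 hj, mem_supp.2 hl, hij,
        Ne.symm h1, Ne.symm h4⟩
      exact h3 this

/-- The reflection step in characteristic two. -/
theorem two_move (h2 : (2 : F) = 0) {y : ι → F} (hy : y ∈ R) {j : Fin t} (hA : Q (π j y) ≠ 0) (hAc : Q (π j y) ≠ c) :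
    ∀ x, Q x = c → x ∈ R := by
  haveI := charP_two_of h2
  obtain ⟨e, f, he, hf, hb⟩ := S.hyp j
  set A := Q (π j y) with hAd
  have hc := S.hc
  have hcA : c - A ≠ 0 := sub_ne_zero.2 (Ne.symm hAc)
  obtain ⟨κ, hκ⟩ := FiniteField.isSquare_of_char_two (ringChar.eq F 2) (c / (c - A))
  have hκ0 : κ ≠ 0 := by
    rintro rfl
    rw [mul_zero] at hκ
    exact div_ne_zero hc hcA hκ
  have hκ2 : κ * κ * (c - A) = c := by
    rw [← hκ]
    field_simp
  set α := 𝔣 f y with hα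
  set β := 𝔣 e y with hβ
  have hAB : A = α * β := comp_norm S.dec hb he hf y
  have hα0 : α ≠ 0 := by
    intro h
    apply hA
    rw [hAB, h, zero_mul]
  set b := (κ * α) • e + (c / (κ * α)) • f with hbd
  have hbE : b ∈ D j := (D j).add_mem ((D j).smul_mem _ he) ((D j).smul_mem _ hf)
  have hQb : Q b = c := by
    rw [hbd, hb.Q_comb]
    field_simp
  have hbR : b ∈ R := S.mem j b hbE hQb
  have hQy0 : Q y ≠ 0 := S.toSys.ne_zero_of_mem hy
  have hQy : Q y = c := S.norm y hy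
  have hf1 : 𝔣 y b = c * κ := by
    rw [hbd, polar_add_right, polar_smul_right', polar_smul_right', polar_comm (⇑Q) y e, polar_comm (⇑Q) y f, ← hα, ← hβ]
    have e1 : c / (κ * α) * α = c / κ := by
      field_simp
    have e2 : κ * α * β = κ * A := by
      rw [hAB]
      ring
    rw [e1, e2]
    field_simp
    linear_combination -hκ2
  have h1 := S.refl y hy b hbR hQy0
  rw [reflectionIso_act, hf1, hQy, ← mul_assoc, inv_mul_cancel₀ hc, one_mul] at h1
  have h3 : π j (b - κ • y) = (c / (κ * α) - κ * β) • f := by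
    rw [map_sub, map_smul, S.dec.idem _ _ hbE, comp_eq S.dec hb he hf y, ← hα, ← hβ, hbd]
    ext l
    simp only [Pi.add_apply, Pi.sub_apply, Pi.smul_apply, smul_eq_mul]
    ring
  have hne : c / (κ * α) - κ * β ≠ 0 := by
    intro h
    have h5 : c / (κ * α) = κ * β := sub_eq_zero.1 h
    rw [div_eq_iff (mul_ne_zero hκ0 hα0)] at h5
    have h6 : c = κ * κ * A := by
      rw [h5, hAB]
      ring
    apply mul_ne_zero (mul_ne_zero hκ0 hκ0) hc
    linear_combination hκ2 - h6 + c * h2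
  refine S.of_sing h1 (i := j) ?_ ?_
  · rw [h3, Q_smul, hb.Qv, mul_zero]
  · rw [h3]
    exact smul_ne_zero hne hb.v_ne

/-- The closure in characteristic two. -/
theorem closure_two (h2 : (2 : F) = 0) {a : ι → F} (ha : a ∈ R) (hno : ∀ i, a ∉ D i) : ∀ x, Q x = c → x ∈ R := by
  classical
  haveI := charP_two_of h2
  have ha0 : a ≠ 0 := by
    rintro rfl
    exact S.toSys.ne_zero_of_mem ha (QuadraticMap.map_zero _)
  by_cases hsing : ∃ i, Q (π i a) = 0 ∧ π i a ≠ 0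
  · obtain ⟨i, h1, h3⟩ := hsing
    exact S.of_sing ha h1 h3
  push Not at hsing
  obtain ⟨i, j, hij, hi, hj⟩ := S.dec.exists_two_comps ha0 hno
  have hNi : Q (π i a) ≠ 0 := fun h => hi (hsing i h)
  have hNj : Q (π j a) ≠ 0 := fun h => hj (hsing j h)
  by_cases hAi : Q (π i a) = c
  · by_cases hAj : Q (π j a) = c
    · obtain ⟨l, hl0, hl1, hl3⟩ := exists_not_cube (F := F) S.hq
      obtain ⟨e, f, he, hf, hb⟩ := S.hyp i
      obtain ⟨ν, hν⟩ := FiniteField.isSquare_of_char_two (ringChar.eq F 2) l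
      have hν0 : ν ≠ 0 := by
        rintro rfl
        rw [mul_zero] at hν
        exact hl0 hν
      subst hν
      have hbR := S.hinv _ (tr_omega_sq S.hQ S.hn hb hν0 hl0) (tr_stab S.dec hb he hf _ hl0) a ha
      set l := ν * ν with hld
      have hQa0 : Q a ≠ 0 := S.toSys.ne_zero_of_mem ha
      have hQa : Q a = c := S.norm a ha
      have hAB : c = 𝔣 f a * 𝔣 e a := by
        rw [← hAi]
        exact comp_norm S.dec hb he hf a
      have hf1 : 𝔣 a (act (tr hb l hl0) a) = c * (l + l⁻¹) := by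
        rw [tr_act, polar_add_right, polar_add_right, polar_smul_right', polar_smul_right', polar_self_eq, hQa,
          polar_comm (⇑Q) a e, polar_comm (⇑Q) a f, hAB]
        linear_combination (1 - 𝔣 f a * 𝔣 e a) * 0 + (𝔣 f a * 𝔣 e a - 𝔣 f a * 𝔣 e a) * 0 +
          (𝔣 f a * 𝔣 e a - 𝔣 f a * 𝔣 e a) * h2
      have h1 := S.refl a ha _ hbR hQa0
      rw [reflectionIso_act, hf1, hQa, ← mul_assoc, inv_mul_cancel₀ S.hc, one_mul] at h1
      set μ := l + l⁻¹ with hμ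
      have hπj : π j (act (tr hb l hl0) a - μ • a) = (1 - μ) • π j a := by
        rw [tr_act, map_sub, map_add, map_add, map_smul, map_smul, map_smul, S.dec.zero _ _ _ hij.symm he,
          S.dec.zero _ _ _ hij.symm hf, smul_zero, smul_zero, add_zero, add_zero, sub_smul, one_smul]
      have hμ1 : μ ≠ 1 := by
        intro h
        apply hl3
        have h5 : l * (l + l⁻¹) = l * 1 := by rw [← hμ, h]
        rw [mul_add, mul_inv_cancel₀ hl0] at h5
        linear_combination h5 + (l + 1 - 1) * 0 + l * h2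
      have hμ0 : μ ≠ 0 := by
        intro h
        apply hl1
        have h5 : l * (l + l⁻¹) = 0 := by rw [← hμ, h, mul_zero]
        rw [mul_add, mul_inv_cancel₀ hl0] at h5
        have h6 : (l - 1) * (l - 1) = 0 := by linear_combination h5 - l * h2
        exact sub_eq_zero.1 (mul_self_eq_zero.1 h6)
      have hQy : Q (π j (act (tr hb l hl0) a - μ • a)) = (1 - μ) * (1 - μ) * c := by
        rw [hπj, Q_smul, hAj]
      refine S.two_move h2 h1 (j := j) ?_ ?_
      · rw [hQy]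
        exact mul_ne_zero (mul_ne_zero (sub_ne_zero.2 (Ne.symm hμ1)) (sub_ne_zero.2 (Ne.symm hμ1))) S.hc
      · rw [hQy]
        intro h
        have h5 : (1 - μ) * (1 - μ) = 1 := by
          have : (1 - μ) * (1 - μ) * c = 1 * c := by rw [h, one_mul]
          exact mul_right_cancel₀ S.hc this
        have h6 : μ * μ = 0 := by linear_combination h5 + μ * h2
        exact hμ0 (mul_self_eq_zero.1 h6)
    · exact S.two_move h2 ha hNj hAj
  · exact S.two_move h2 ha hNi hAi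

/-- The closure. -/
theorem closure {a : ι → F} (ha : a ∈ R) (hno : ∀ i, a ∉ D i) : ∀ x, Q x = c → x ∈ R := by
  by_cases h2 : (2 : F) = 0
  · exact S.closure_two h2 ha hno
  · exact S.closure_odd h2 ha hno

end HS

end Cfsg.Agent.Lib.Classical.Decomp.Hyp
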