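/-
Decompositions into hyperbolic planes, and members of even dimension at least four in characteristic two: maximality of the stabiliser in `Ω`.
-/
import Mathlib
import Cfsg.Agent.Lib.Classical.Decomp.Hyp.Move
import Cfsg.Agent.Lib.Classical.Decomp.Hyp.Final
import Cfsg.Agent.Lib.Classical.Decomp.Hyp.TwoB

set_option autoImplicit false
set_option linter.unusedSectionVars false
set_option linter.unusedSimpArgs false
set_option linter.unusedVariables false

namespace Cfsg.Agent.Lib.Classical.Decomp.Hyp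

open Matrix QuadraticMap Module Cfsg.Geo
open Cfsg.Agent.Lib.Classical.Decomp
open Cfsg.Agent.Lib.Classical.Decomp.Ev
open Cfsg.Agent.Lib.Classical.Orth.Basic

variable {ι : Type} [Fintype ι] [DecidableEq ι] {F : Type*} [Field F] [Fintype F]
variable {Q : QuadraticForm F (ι → F)}

set_option quotPrecheck false in
local notation "𝔣" => polar (⇑Q)
set_option quotPrecheck false in
local notation "𝕀" => ↥(Cfsg.isometryGroup F (⇑Q))

variable {t k : ℕ} {D : Fin t → Submodule F (ι → F)} {π : Fin t → (ι → F) →ₗ[F] (ι → F)}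

/-- The spanning property for hyperbolic planes. -/
theorem span_hyp (dec : Dec Q 2 D π) (hq : 7 ≤ Fintype.card F) (hyp : ∀ i, ∃ e f, e ∈ D i ∧ f ∈ D i ∧ HB Q e f) (c : F)
    (hc : c ≠ 0) : SpanProp Q D c := by
  intro i U horth hcov
  obtain ⟨e, f, he, hf, hb⟩ := hyp i
  obtain ⟨ν, hν, hν4⟩ := exists_nu (F := F) hq
  set a := e + c • f with ha
  set a' := ν • e + (c * ν⁻¹) • f with ha'
  have haE : a ∈ D i := (D i).add_mem he ((D i).smul_mem _ hf)
  have ha'E : a' ∈ D i := (D i).add_mem ((D i).smul_mem _ he) ((D i).smul_mem _ hf)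
  have hQa : Q a = c := by
    have := hb.Q_comb 1 c
    rwa [one_smul, one_mul] at this
  have hQa' : Q a' = c := by
    rw [ha', hb.Q_comb]
    field_simp
  obtain ⟨j, hj⟩ := hcov a haE hQa
  obtain ⟨j', hj'⟩ := hcov a' ha'E hQa'
  have hsum : ν⁻¹ + ν ≠ 0 := by
    intro h
    apply hν4
    have h7 : ν * (ν⁻¹ + ν) = 0 := by rw [h, mul_zero]
    rw [mul_add, mul_inv_cancel₀ hν] at h7
    have h8 : ν * ν = -1 := by linear_combination h7
    rw [h8]
    ring
  have hf1 : 𝔣 a a' = c * (ν⁻¹ + ν) := by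
    rw [ha, polar_add_left, polar_smul_left', hb.f_comb_right, hb.f_comb_right']
    ring
  have hjj : j = j' := by
    by_contra hne
    have := horth j j' hne _ hj _ hj'
    rw [hf1] at this
    exact mul_ne_zero hc hsum this
  subst hjj
  refine ⟨j, fun x hx => ?_⟩
  have ha0 : a ≠ 0 := by
    intro h
    apply hc
    rw [← hQa, h, QuadraticMap.map_zero]
  have hind : ∀ l : F, a' ≠ l • a := by
    intro l hl
    have e1 : 𝔣 f a' = ν := hb.f_comb_right' _ _
    have e2 : 𝔣 e a' = c * ν⁻¹ := hb.f_comb_right _ _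
    have e3 : 𝔣 f a = 1 := by
      have := hb.f_comb_right' 1 c
      rwa [one_smul] at this
    have e4 : 𝔣 e a = c := hb.f_comb_right 1 c |> fun h => by rwa [one_smul] at h
    rw [hl, polar_smul_right'] at e1 e2
    rw [e3, mul_one] at e1
    rw [e4] at e2
    have h5 : ν * c = c * ν⁻¹ := by
      have h8 := e2
      rw [e1] at h8
      exact h8
    have h6 : ν = ν⁻¹ := by
      have : c * ν = c * ν⁻¹ := by rw [← h5]; ring
      exact mul_left_cancel₀ hc this
    apply hν4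
    have h7 : ν * ν = 1 := by
      calc ν * ν = ν * ν⁻¹ := by rw [← h6]
        _ = 1 := mul_inv_cancel₀ hν
    rw [h7, one_mul]
  obtain ⟨u, v, rfl⟩ := coord (dec.dim i) haE ha'E ha0 hind x hx
  exact (U j).add_mem ((U j).smul_mem _ hj) ((U j).smul_mem _ hj')

/-- Maximality for hyperbolic planes. -/
theorem maximal_hyp (dec : Dec Q 2 D π) (hQ : (polarBilin Q).Nondegenerate) (hn : 5 ≤ Fintype.card ι)
    (iso : ∀ i j, AreIsometricFor (⇑Q) (D i) (D j)) (ht : 7 ≤ t) (hq : 7 ≤ Fintype.card F)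
    (hyp : ∀ i, ∃ e f, e ∈ D i ∧ f ∈ D i ∧ HB Q e f) :
    IsMaximalIn (omegaGL (⇑Q)) (decompositionStabilizer D ⊓ omegaGL (⇑Q)) := by
  classical
  have hn' : Fintype.card ι ≠ 4 := by omega
  let i₀ : Fin t := ⟨0, by omega⟩
  let i₁ : Fin t := ⟨1, by omega⟩
  have h01 : i₀ ≠ i₁ := by simp [i₀, i₁, Fin.ext_iff]
  have hstrict : decompositionStabilizer D ⊓ omegaGL (⇑Q) < omegaGL (⇑Q) := by
    have hd : ∀ i, 2 ≤ finrank F (D i) := fun i => by rw [dec.dim]
    obtain ⟨u, hu, hQu⟩ := univ_all (dec.nd i₀) (hd _) 1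
    obtain ⟨v, hv, hQv⟩ := univ_all (dec.nd i₁) (hd _) 1
    have hne : ∀ {x : ι → F}, Q x = 1 → x ≠ 0 := by
      rintro x h rfl
      rw [QuadraticMap.map_zero] at h
      exact zero_ne_one h
    have huv : 𝔣 u v = 0 := dec.orth i₀ i₁ h01 _ hu _ hv
    by_cases h2 : (2 : F) = 0
    · let i₂ : Fin t := ⟨2, by omega⟩
      have h02 : i₀ ≠ i₂ := by simp [i₀, i₂, Fin.ext_iff]
      have h12 : i₁ ≠ i₂ := by simp [i₁, i₂, Fin.ext_iff]
      obtain ⟨w, hw, hQw⟩ := univ_all (dec.nd i₂) (hd _) 1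
      have hπ₀ : π i₀ (u + v + w) = u := by
        rw [map_add, map_add, dec.idem _ _ hu, dec.zero _ _ _ h01 hv, dec.zero _ _ _ h02 hw, add_zero, add_zero]
      have hπ₁ : π i₁ (u + v + w) = v := by
        rw [map_add, map_add, dec.zero _ _ _ h01.symm hu, dec.idem _ _ hv, dec.zero _ _ _ h12 hw, add_zero, zero_add]
      refine stab_lt dec hQ hn' le_rfl h01 (by rw [hπ₀]; exact hne hQu) (by rw [hπ₁]; exact hne hQv) ?_
      rw [Q_add_of_perp, Q_add_of_perp huv, hQu, hQv, hQw]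
      · have : (1 : F) + 1 + 1 = 1 := by linear_combination h2
        rw [this]
        exact one_ne_zero
      · rw [polar_add_left, dec.orth i₀ i₂ h02 _ hu _ hw, dec.orth i₁ i₂ h12 _ hv _ hw, add_zero]
    · have hπ₀ : π i₀ (u + v) = u := by
        rw [map_add, dec.idem _ _ hu, dec.zero _ _ _ h01 hv, add_zero]
      have hπ₁ : π i₁ (u + v) = v := by
        rw [map_add, dec.zero _ _ _ h01.symm hu, dec.idem _ _ hv, zero_add]
      refine stab_lt dec hQ hn' le_rfl h01 (by rw [hπ₀]; exact hne hQu) (by rw [hπ₁]; exact hne hQv) ?_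
      rw [Q_add_of_perp huv, hQu, hQv]
      have : (1 : F) + 1 = 2 := by norm_num
      rw [this]
      exact h2
  refine maximal_of_parts dec hQ hn two_pos (fun c hc => span_hyp dec hq hyp c hc) ?_ ?_ hstrict
  · intro R c S a ha hno x hx
    have P : HS Q D π R c := ⟨S, ht, hq, iso, hn', hyp⟩
    exact P.closure ha hno x hx
  · intro M S m hm
    exact FS.final_hyp S ht hq hyp m hm

/-- The spanning property in characteristic two. -/
theorem span_two₂ (dec : Dec Q k D π) (h2 : (2 : F) = 0) (hk : 4 ≤ k)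
    (hcommon : ∀ (l : Fin t) {a y : ι → F}, a ∈ D l → y ∈ D l → Q a ≠ 0 → Q y ≠ 0 → (∀ r : F, y ≠ r • a) → 𝔣 a y = 0 →
      ∃ z ∈ D l, Q z ≠ 0 ∧ 𝔣 a z ≠ 0 ∧ 𝔣 y z ≠ 0) (c : F)
    (hc : c ≠ 0) : SpanProp Q D c := by
  intro i U horth hcov
  have hdim : 4 ≤ finrank F (D i) := by rw [dec.dim]; exact hk
  obtain ⟨a, ha, hQa⟩ := univ_all (dec.nd i) (by omega) c
  have ha0 : Q a ≠ 0 := by rw [hQa]; exact hc
  have hcov' : ∀ b ∈ D i, Q b ≠ 0 → ∃ j, b ∈ U j := by
    intro b hb hb0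
    obtain ⟨μ, hμ⟩ := exists_scale h2 hb0 c
    have hμ0 : μ ≠ 0 := by
      rintro rfl
      apply hc
      rw [← hμ, zero_smul, QuadraticMap.map_zero]
    obtain ⟨j, hj⟩ := hcov _ ((D i).smul_mem _ hb) hμ
    exact ⟨j, (Submodule.smul_mem_iff _ hμ0).1 hj⟩
  obtain ⟨j, hj⟩ := hcov a ha hQa
  have hall : ∀ y ∈ D i, Q y ≠ 0 → y ∈ U j := by
    intro y hy hy0
    obtain ⟨j', hj'⟩ := hcov' y hy hy0
    by_cases hjj : j = j'
    · subst hjj
      exact hj'
    by_cases hind : ∀ l : F, y ≠ l • a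
    · obtain ⟨z, hz, hz0, h3, h4⟩ := hcommon i ha hy ha0 hy0 hind
        (horth j j' hjj _ hj _ hj')
      obtain ⟨j'', hj''⟩ := hcov' z hz hz0
      have h5 : j = j'' := by
        by_contra h6
        exact h3 (horth j j'' h6 _ hj _ hj'')
      have h6 : j' = j'' := by
        by_contra h7
        exact h4 (horth j' j'' h7 _ hj' _ hj'')
      exact absurd (h5.trans h6.symm) hjj
    · push Not at hind
      obtain ⟨l, hl⟩ := hind
      rw [hl]
      exact (U j).smul_mem _ hj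
  refine ⟨j, fun v hv => ?_⟩
  by_cases hv0 : Q v = 0
  · by_cases hv00 : v = 0
    · rw [hv00]
      exact (U j).zero_mem
    obtain ⟨p, hp, h1, h3⟩ := exists_perp_norm₂ h2 (dec.nd i) hdim hv hv00 1
    have hp0 : Q p ≠ 0 := by rw [h3]; exact one_ne_zero
    have hsum : Q (v + p) ≠ 0 := by
      rw [Q_add_of_perp h1, hv0, h3, zero_add]
      exact one_ne_zero
    have h4 := (U j).sub_mem (hall _ ((D i).add_mem hv hp) hsum) (hall p hp hp0)
    rwa [add_sub_cancel_right] at h4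
  · exact hall v hv hv0

/-- Maximality for members of dimension at least four in characteristic two. -/
theorem maximal_two₂ (dec : Dec Q k D π) (hQ : (polarBilin Q).Nondegenerate) (hn : 5 ≤ Fintype.card ι)
    (iso : ∀ i j, AreIsometricFor (⇑Q) (D i) (D j)) (ht : 2 ≤ t) (h2 : (2 : F) = 0) (hk : 4 ≤ k)
    (hcommon : ∀ (l : Fin t) {a y : ι → F}, a ∈ D l → y ∈ D l → Q a ≠ 0 → Q y ≠ 0 → (∀ r : F, y ≠ r • a) → 𝔣 a y = 0 →
      ∃ z ∈ D l, Q z ≠ 0 ∧ 𝔣 a z ≠ 0 ∧ 𝔣 y z ≠ 0) :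
    IsMaximalIn (omegaGL (⇑Q)) (decompositionStabilizer D ⊓ omegaGL (⇑Q)) := by
  classical
  have hn' : Fintype.card ι ≠ 4 := by omega
  let i₀ : Fin t := ⟨0, by omega⟩
  let i₁ : Fin t := ⟨1, by omega⟩
  have h01 : i₀ ≠ i₁ := by simp [i₀, i₁, Fin.ext_iff]
  have hstrict : decompositionStabilizer D ⊓ omegaGL (⇑Q) < omegaGL (⇑Q) := by
    have hd : ∀ i, 4 ≤ finrank F (D i) := fun i => by rw [dec.dim]; exact hk
    obtain ⟨u, hu, hQu⟩ := univ_all (dec.nd i₀) (by have := hd i₀; omega) 1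
    obtain ⟨y, hy, hy1⟩ := exists_nonsing (dec.nd i₁) (by have := hd i₁; omega)
    have hy0 : y ≠ 0 := by
      rintro rfl
      exact hy1 (QuadraticMap.map_zero _)
    obtain ⟨v, hv, hfv, hQv⟩ := exists_norm_pair₂ h2 (dec.nd i₁) (hd _) hy hy0 one_ne_zero 0
    have hv0 : v ≠ 0 := by
      rintro rfl
      rw [polar_zero_right] at hfv
      exact zero_ne_one hfv
    have hu0 : u ≠ 0 := by
      rintro rfl
      rw [QuadraticMap.map_zero] at hQu
      exact zero_ne_one hQu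
    have huv : 𝔣 u v = 0 := dec.orth i₀ i₁ h01 _ hu _ hv
    have hπ₀ : π i₀ (u + v) = u := by
      rw [map_add, dec.idem _ _ hu, dec.zero _ _ _ h01 hv, add_zero]
    have hπ₁ : π i₁ (u + v) = v := by
      rw [map_add, dec.zero _ _ _ h01.symm hu, dec.idem _ _ hv, zero_add]
    refine stab_lt dec hQ hn' (by omega) h01 (by rw [hπ₀]; exact hu0) (by rw [hπ₁]; exact hv0) ?_
    rw [Q_add_of_perp huv, hQu, hQv, add_zero]
    exact one_ne_zero
  refine maximal_of_parts dec hQ hn (by omega) (fun c hc => span_two₂ dec h2 hk hcommon c hc) ?_ ?_ hstrict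
  · intro R c S a ha hno x hx
    have P : TC Q k D π R c := ⟨S, h2, hk, hcommon, iso, hn'⟩
    exact P.closure ha hno x hx
  · intro M S m hm
    exact S.final_large (by omega) (i₀ := i₀) (fun y hy => pair_two dec h2 hk y hy) m hm

end Cfsg.Agent.Lib.Classical.Decomp.Hyp
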